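import Cfsg.Agent.Lib.Char.Clifford
import Mathlib.Tactic

/-!
# Mackey's formula for factorizations; irreducibility descends along induction
-/

set_option autoImplicit false

namespace Cfsg.Agent.Lib.Char.Mackey

open Cfsg Module
open Cfsg.Agent.Lib.Char.Basic Cfsg.Agent.Lib.Char.Ortho Cfsg.Agent.Lib.Char.Complete
open Cfsg.Agent.Lib.Char.Induced Cfsg.Agent.Lib.Char.Conj Cfsg.Agent.Lib.Char.IndRep
open Cfsg.Agent.Lib.Char.Clifford
open scoped ComplexConjugate

universe u

variable {H : Type u} [Group H] [Fintype H]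

/-- If `H = K T`, then a sum over `H` of a function right-invariant under `T` is a multiple of the
sum over `K`. -/
theorem sum_eq_of_factorization {T K : Subgroup H} [Fintype T] [Fintype K]
    (hf : ∀ h : H, ∃ k ∈ K, ∃ t ∈ T, h = k * t) (F : H → ℂ)
    (hF : ∀ (h : H) (t : H), t ∈ T → F (h * t) = F h) :
    (Nat.card (T.subgroupOf K) : ℂ) * ∑ h : H, F h = (Nat.card T : ℂ) * ∑ k : K, F k := by
  classical
  letI : Fintype (T.subgroupOf K) := Fintype.ofFinite _
  have h1 : ∑ p : K × T, F ((p.1 : H) * (p.2 : H)) = (Nat.card T : ℂ) * ∑ k : K, F k := by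
    rw [Fintype.sum_prod_type]
    simp only [fun (k : K) (t : T) => hF (k : H) (t : H) t.2]
    simp only [Finset.sum_const, Finset.card_univ, nsmul_eq_mul, Nat.card_eq_fintype_card]
    rw [Finset.mul_sum]
  have h2 : ∑ p : K × T, F ((p.1 : H) * (p.2 : H)) =
      ∑ h : H, ∑ p : K × T, if (p.1 : H) * (p.2 : H) = h then F h else 0 := by
    rw [Finset.sum_comm]
    refine Finset.sum_congr rfl fun p _ => ?_
    rw [Finset.sum_ite_eq]
    simp
  have hfib : ∀ h : H, ∑ p : K × T, (if (p.1 : H) * (p.2 : H) = h then F h else 0) =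
      (Nat.card (T.subgroupOf K) : ℂ) * F h := by
    intro h
    obtain ⟨k₀, hk₀, t₀, ht₀, rfl⟩ := hf h
    rw [Finset.sum_ite, Finset.sum_const_zero, add_zero, Finset.sum_const, nsmul_eq_mul]
    congr 1
    have hcard : (Finset.univ.filter
        (fun x : K × T => (x.1 : H) * (x.2 : H) = k₀ * t₀)).card = Nat.card (T.subgroupOf K) := by
      rw [← Fintype.card_subtype, ← Nat.card_eq_fintype_card]
      have key : ∀ a b : H, a * b = k₀ * t₀ → k₀⁻¹ * a = t₀ * b⁻¹ := by
        intro a b h
        rw [eq_mul_inv_of_mul_eq h]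
        group
      have key2 : ∀ a b : H, a * b = k₀ * t₀ → (k₀⁻¹ * a)⁻¹ * t₀ = b := by
        intro a b h
        rw [key a b h]
        group
      refine Nat.card_congr
        { toFun := fun x => ⟨⟨k₀⁻¹ * (x.1.1 : H), K.mul_mem (K.inv_mem hk₀) x.1.1.2⟩, ?_⟩
          invFun := fun c => ⟨(⟨k₀ * ((c : K) : H), K.mul_mem hk₀ (c : K).2⟩,
            ⟨((c : K) : H)⁻¹ * t₀, T.mul_mem (T.inv_mem (Subgroup.mem_subgroupOf.mp c.2)) ht₀⟩), ?_⟩
          left_inv := ?_
          right_inv := ?_ }
      · rw [Subgroup.mem_subgroupOf]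
        change k₀⁻¹ * (x.1.1 : H) ∈ T
        rw [key _ _ x.2]
        exact T.mul_mem ht₀ (T.inv_mem x.1.2.2)
      · simp [mul_assoc]
      · intro x
        apply Subtype.ext
        apply Prod.ext
        · apply Subtype.ext
          simp
        · apply Subtype.ext
          exact key2 _ _ x.2
      · intro c
        apply Subtype.ext
        apply Subtype.ext
        simp
    rw [hcard]
  rw [← h1, h2, Finset.mul_sum]
  exact Finset.sum_congr rfl fun h _ => (hfib h).symm

/-- **Mackey** for a factorization `H = K T`. -/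
theorem restrict_indFun_of_factorization {T K : Subgroup H} [Fintype K]
    (hf : ∀ h : H, ∃ k ∈ K, ∃ t ∈ T, h = k * t) {f : T → ℂ} (hcf : IsClassFunction T f) :
    (fun k : K => indFun T f k) =
      indFun (T.subgroupOf K) (fun x => f ⟨((x : K) : H), Subgroup.mem_subgroupOf.mp x.2⟩) := by
  classical
  letI : Fintype T := Fintype.ofFinite T
  funext k
  set g : T.subgroupOf K → ℂ := fun x => f ⟨((x : K) : H), Subgroup.mem_subgroupOf.mp x.2⟩ with hg
  have hT : (Nat.card T : ℂ) ≠ 0 := card_subgroup_ne_zero T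
  have hS : (Nat.card (T.subgroupOf K) : ℂ) ≠ 0 := card_subgroup_ne_zero _
  let F : H → ℂ := fun h => extendByZero T f (h⁻¹ * k * h)
  have hF : ∀ (h t : H), t ∈ T → F (h * t) = F h := by
    intro h t ht
    simp only [F]
    by_cases hin : h⁻¹ * k * h ∈ T
    · have hin' : (h * t)⁻¹ * k * (h * t) ∈ T := by
        have : (h * t)⁻¹ * k * (h * t) = t⁻¹ * (h⁻¹ * k * h) * t := by group
        rw [this]
        exact T.mul_mem (T.mul_mem (T.inv_mem ht) hin) ht
      rw [extendByZero_of_mem _ _ hin, extendByZero_of_mem _ _ hin']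
      have := hcf ⟨_, hin⟩ ⟨t⁻¹, T.inv_mem ht⟩
      rw [← this]
      congr 1
      apply Subtype.ext
      simp
      group
    · have hin' : (h * t)⁻¹ * k * (h * t) ∉ T := by
        intro hc
        apply hin
        have : h⁻¹ * k * h = t * ((h * t)⁻¹ * k * (h * t)) * t⁻¹ := by group
        rw [this]
        exact T.mul_mem (T.mul_mem ht hc) (T.inv_mem ht)
      rw [extendByZero_of_not_mem _ _ hin, extendByZero_of_not_mem _ _ hin']
  have hsum := sum_eq_of_factorization hf F hF
  have hKval : ∀ m : K, extendByZero (T.subgroupOf K) g (m⁻¹ * k * m) = F m := by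
    intro m
    simp only [F]
    by_cases hin : ((m⁻¹ * k * m : K) : H) ∈ T
    · rw [extendByZero_of_mem _ _ (Subgroup.mem_subgroupOf.mpr hin)]
      have hin' : (m : H)⁻¹ * k * m ∈ T := by simpa using hin
      rw [extendByZero_of_mem _ _ hin']
      simp only [hg]
      congr 1
    · rw [extendByZero_of_not_mem _ _ (fun h => hin (Subgroup.mem_subgroupOf.mp h))]
      have hin' : (m : H)⁻¹ * k * m ∉ T := by simpa using hin
      rw [extendByZero_of_not_mem _ _ hin']
  rw [indFun_apply, indFun_apply]
  simp only [hKval]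
  have hFdef : ∑ x : H, extendByZero T f (x⁻¹ * k * x) = ∑ x : H, F x := rfl
  rw [hFdef]
  field_simp
  linear_combination hsum

/-- If the induction of a character is irreducible, so is the character. -/
theorem isIrr_of_indFun_isIrr {N : Type u} [Group N] [Fintype N] (S : Subgroup N) [Fintype S]
    {g : S → ℂ} (hg : IsCharacter S g) (hind : IsIrrCharacter N (indFun S g)) :
    IsIrrCharacter S g := by
  classical
  have hne : g ≠ 0 := by
    intro h0
    have h1 := irr_one_ne_zero hind
    rw [indFun_one, h0] at h1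
    simp at h1
  obtain ⟨β, hβ, hcon⟩ := exists_irr_constituent (isClassFunction_of_isCharacter hg) hne
  have hsub := isCharacter_sub_of_classInner_ne_zero hg hβ hcon
  have hsplit : indFun S g = indFun S β + indFun S (g - β) := by
    rw [← indFun_add]
    congr 1
    abel
  have hβc := isCharacter_of_isIrrCharacter hβ
  have hindβ := isCharacter_indFun S hβc
  have hneβ : indFun S β ≠ 0 := by
    intro h0
    have h1 := congrFun h0 1
    rw [indFun_one] at h1
    simp only [Pi.zero_apply, mul_eq_zero] at h1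
    rcases h1 with h1 | h1
    · exact index_ne_zero' S h1
    · exact irr_one_ne_zero hβ h1
  obtain ⟨γ, hγ, hconγ⟩ := exists_irr_constituent (isClassFunction_of_isCharacter hindβ) hneβ
  have hcong : classInner (indFun S g) γ ≠ 0 := by
    intro h0
    rw [hsplit] at h0
    exact hconγ (classInner_eq_zero_of_add hindβ (isCharacter_indFun S hsub)
      (isCharacter_of_isIrrCharacter hγ) h0)
  have hγeq : γ = indFun S g := by
    by_contra hne'
    exact hcong (classInner_eq_zero_of_isIrr_of_ne hind hγ (fun h => hne' h.symm))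
  obtain ⟨g₁, hg₁⟩ := exists_deg_of_isCharacter hg
  obtain ⟨b₁, hb₁⟩ := exists_deg_of_isCharacter hβc
  have h1 : indFun S β 1 = ((S.index * b₁ : ℕ) : ℂ) := by
    rw [indFun_one, hb₁]
    push_cast
    rfl
  have h2 : γ 1 = ((S.index * g₁ : ℕ) : ℂ) := by
    rw [hγeq, indFun_one, hg₁]
    push_cast
    rfl
  have hle := deg_le_of_constituent hindβ hγ hconγ h1 h2
  have hidx : 0 < S.index := Nat.pos_of_ne_zero Subgroup.index_ne_zero_of_finite
  have hle' : g₁ ≤ b₁ := Nat.le_of_mul_le_mul_left hle hidx
  rw [eq_of_constituent_of_deg_le hg hβ hcon hg₁ hb₁ hle']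
  exact hβ

end Cfsg.Agent.Lib.Char.Mackey
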