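import Cfsg.Agent.Lib.Char.RelM
import Cfsg.Agent.Lib.Char.Mackey
import Cfsg.Agent.Lib.Char.Extend
import Mathlib.GroupTheory.Sylow
import Mathlib.Tactic

/-!
# From relative M-groups to M-groups: normal subgroups with abelian Sylow subgroups (Isaacs 6.23)
-/

set_option autoImplicit false

namespace Cfsg.Agent.Lib.Char.AbSylow

open Cfsg Module
open Cfsg.Agent.Lib.Char.Basic Cfsg.Agent.Lib.Char.Ortho Cfsg.Agent.Lib.Char.Complete
open Cfsg.Agent.Lib.Char.Induced Cfsg.Agent.Lib.Char.Conj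
open Cfsg.Agent.Lib.Char.Clifford Cfsg.Agent.Lib.Char.CliffordCorr
open Cfsg.Agent.Lib.Char.Monomial Cfsg.Agent.Lib.Char.Linear
open Cfsg.Agent.Lib.Char.RelM Cfsg.Agent.Lib.Char.Mackey
open scoped ComplexConjugate

universe u v

/-- All Sylow subgroups are abelian. -/
def AbSylow (N : Type u) [Group N] : Prop :=
  ∀ (p : ℕ) [Fact p.Prime] (P : Sylow p N), ∀ a ∈ P, ∀ b ∈ P, a * b = b * a

theorem AbSylow.comm_of_isPGroup {N : Type u} [Group N] [Finite N] (h : AbSylow N) {p : ℕ}
    [Fact p.Prime] {Q : Subgroup N} (hQ : IsPGroup p Q) : ∀ a ∈ Q, ∀ b ∈ Q, a * b = b * a := by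
  obtain ⟨P, hP⟩ := hQ.exists_le_sylow
  intro a ha b hb
  exact h p P a (hP ha) b (hP hb)

theorem AbSylow.of_injective {A B : Type u} [Group A] [Group B] [Finite A] [Finite B]
    (h : AbSylow B) (f : A →* B) (hf : Function.Injective f) : AbSylow A := by
  intro p _ P a ha b hb
  have hPp : IsPGroup p (P : Subgroup A) := P.isPGroup'
  have hQ : IsPGroup p ((P : Subgroup A).map f) := hPp.map f
  have := h.comm_of_isPGroup hQ (f a) ⟨a, ha, rfl⟩ (f b) ⟨b, hb, rfl⟩
  apply hf
  simpa using this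

section Exists

variable {H : Type u} [Group H] [Finite H] {V : Type v} [AddCommGroup V] [Module ℂ V]

/-- A normal subgroup inside `N` with commuting image, not acting by scalars. -/
theorem exists_normal_commuting (hsolv : Group.IsSolvable H) (ρ : Representation ℂ H V)
    {N : Subgroup H} (hN : N.Normal) (hab : AbSylow N) (hNZ : ¬ N ≤ scalarSubgroup ρ) :
    ∃ A : Subgroup H, A.Normal ∧ A ≤ N ∧ ¬ A ≤ scalarSubgroup ρ ∧
      ∀ a ∈ A, ∀ b ∈ A, ρ a * ρ b = ρ b * ρ a := by
  classical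
  have hZn := scalarSubgroup_normal ρ
  set Z₀ := scalarSubgroup ρ ⊓ N with hZ₀
  have hZ₀n : Z₀.Normal := by
    rw [hZ₀]
    exact Subgroup.normal_inf_normal _ _
  have hZ₀N : Z₀ < N := by
    refine lt_of_le_of_ne inf_le_right ?_
    intro h
    exact hNZ (h ▸ inf_le_left)
  let S : Set (Subgroup H) := {A | A.Normal ∧ Z₀ < A ∧ A ≤ N}
  have hS : N ∈ S := ⟨hN, hZ₀N, le_rfl⟩
  obtain ⟨A, -, hmin⟩ := S.toFinite.exists_le_minimal hS
  have hAn : A.Normal := hmin.prop.1
  have hZA : Z₀ < A := hmin.prop.2.1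
  have hAN : A ≤ N := hmin.prop.2.2
  have hmin' : ∀ M : Subgroup H, M.Normal → Z₀ ≤ M → M ≤ A → M = Z₀ ∨ M = A := by
    intro M hM hZM hMA
    by_cases hM' : M = Z₀
    · exact Or.inl hM'
    · right
      have hmem : M ∈ S := ⟨hM, lt_of_le_of_ne hZM (Ne.symm hM'), hMA.trans hAN⟩
      exact le_antisymm hMA (hmin.le_of_le hmem hMA)
  have hsolvQ : Group.IsSolvable (H ⧸ Z₀) := inferInstance
  have hcomm := commutator_le_of_chief hZ₀n hAn hZ₀n hsolvQ le_rfl hZA hmin'
  -- the prime
  let Z' : Subgroup A := Z₀.subgroupOf A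
  have hZ'n : Z'.Normal := hZ₀n.subgroupOf A
  have hrel : Nat.card (A ⧸ Z') ≠ 1 := by
    intro h
    have h1 : Z'.index = 1 := h
    have h2 : Z' = ⊤ := Subgroup.index_eq_one.mp h1
    have h3 : A ≤ Z₀ := by
      intro a ha
      have : (⟨a, ha⟩ : A) ∈ Z' := by rw [h2]; trivial
      exact this
    exact absurd h3 (not_le_of_gt hZA)
  obtain ⟨p, hp, hpd⟩ := Nat.exists_prime_and_dvd hrel
  haveI : Fact p.Prime := ⟨hp⟩
  obtain ⟨x, hx⟩ := exists_prime_orderOf_dvd_card' p hpd
  obtain ⟨a₀, rfl⟩ := QuotientGroup.mk_surjective x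
  have ha₀ : (a₀ : H) ∉ Z₀ := by
    intro h
    have h1 : ((a₀ : A) : A ⧸ Z') = 1 := (QuotientGroup.eq_one_iff a₀).mpr h
    rw [h1, orderOf_one] at hx
    exact hp.one_lt.ne hx
  have ha₀p : (a₀ : H) ^ p ∈ Z₀ := by
    have h1 : ((a₀ : A) : A ⧸ Z') ^ p = 1 := by
      rw [← hx]
      exact pow_orderOf_eq_one _
    rw [← QuotientGroup.mk_pow, QuotientGroup.eq_one_iff] at h1
    exact h1
  let mkZ : H →* H ⧸ Z₀ := QuotientGroup.mk' Z₀
  have hmem : ∀ y : H, y ∈ Z₀ ↔ mkZ y = 1 := by
    intro y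
    rw [← MonoidHom.mem_ker, QuotientGroup.ker_mk']
  have hcm : ∀ a ∈ A, ∀ b ∈ A, Commute (mkZ a) (mkZ b) := by
    intro a ha b hb
    have h1 : a * b * a⁻¹ * b⁻¹ ∈ Z₀ := hcomm (Subgroup.commutator_mem_commutator ha hb)
    rw [hmem] at h1
    simp only [map_mul, map_inv] at h1
    exact mul_inv_eq_iff_eq_mul.mp (mul_inv_eq_one.mp h1)
  let B : Subgroup H :=
    { carrier := {b | b ∈ A ∧ ∃ k : ℕ, b ^ (p ^ k) ∈ Z₀}
      mul_mem' := by
        rintro a b ⟨ha, k, hk⟩ ⟨hb, l, hl⟩
        refine ⟨A.mul_mem ha hb, k + l, ?_⟩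
        rw [hmem] at hk hl ⊢
        rw [map_pow] at hk hl
        rw [map_pow, map_mul, (hcm a ha b hb).mul_pow, pow_add]
        rw [pow_mul, hk, one_pow, one_mul, mul_comm (p ^ k), pow_mul, hl, one_pow]
      one_mem' := ⟨A.one_mem, 0, by simp [Z₀.one_mem]⟩
      inv_mem' := by
        rintro a ⟨ha, k, hk⟩
        refine ⟨A.inv_mem ha, k, ?_⟩
        rw [inv_pow]
        exact Z₀.inv_mem hk }
  have hBn : B.Normal := by
    constructor
    rintro b ⟨hb, k, hk⟩ g
    refine ⟨hAn.conj_mem b hb g, k, ?_⟩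
    rw [conj_pow]
    exact hZ₀n.conj_mem _ hk g
  have hZB : Z₀ ≤ B := fun z hz => ⟨hZA.le hz, 0, by simpa using hz⟩
  have hBA : B ≤ A := fun b hb => hb.1
  have hBeq : B = A := by
    rcases hmin' B hBn hZB hBA with h | h
    · exfalso
      apply ha₀
      rw [← h]
      exact ⟨a₀.2, 1, by simpa using ha₀p⟩
    · exact h
  have hpg : IsPGroup p (A ⧸ Z') := by
    intro q
    obtain ⟨b, rfl⟩ := QuotientGroup.mk_surjective q
    have hb : (b : H) ∈ B := by rw [hBeq]; exact b.2
    obtain ⟨-, k, hk⟩ := hb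
    refine ⟨k, ?_⟩
    rw [← QuotientGroup.mk_pow, QuotientGroup.eq_one_iff]
    exact hk
  obtain ⟨n, hn⟩ := IsPGroup.iff_card.mp hpg
  have hidx : Z'.index = p ^ n := hn
  obtain ⟨P⟩ : Nonempty (Sylow p A) := Sylow.nonempty
  have hsup : Z' ⊔ (P : Subgroup A) = ⊤ := by
    have h1 : (Z' ⊔ (P : Subgroup A)).index ∣ p ^ n := by
      rw [← hidx]
      exact Subgroup.index_dvd_of_le le_sup_left
    have h2 : (Z' ⊔ (P : Subgroup A)).index ∣ (P : Subgroup A).index :=
      Subgroup.index_dvd_of_le le_sup_right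
    obtain ⟨m, -, hm⟩ := (Nat.dvd_prime_pow hp).1 h1
    have hnd := P.not_dvd_index
    rw [Subgroup.index_eq_one.symm]
    rcases m.eq_zero_or_pos with h0 | h0
    · rw [hm, h0, pow_zero]
    · exfalso
      apply hnd
      refine dvd_trans ?_ h2
      rw [hm]
      exact dvd_pow_self p h0.ne'
  refine ⟨A, hAn, hAN, ?_, ?_⟩
  · intro h
    apply ha₀
    exact ⟨h a₀.2, hAN a₀.2⟩
  intro a ha b hb
  have hdec : ∀ y ∈ A, ∃ c : ℂ, ∃ q ∈ (P : Subgroup A), ρ y = c • ρ (q : H) := by
    intro y hy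
    have h1 : (⟨y, hy⟩ : A) ∈ ((Z' ⊔ (P : Subgroup A) : Subgroup A) : Set A) := by
      rw [hsup]
      trivial
    rw [Subgroup.normal_mul] at h1
    obtain ⟨z, hz, q, hq, hzq⟩ := h1
    have hzq' : y = (z : H) * (q : H) := by
      have := congrArg Subtype.val hzq
      simpa using this.symm
    have hz' : (z : H) ∈ scalarSubgroup ρ := (Subgroup.mem_subgroupOf.mp hz).1
    obtain ⟨c, hc⟩ := hz'
    refine ⟨c, q, hq, ?_⟩
    rw [hzq', map_mul, hc, smul_mul_assoc, one_mul]
  obtain ⟨c₁, q₁, hq₁, h1⟩ := hdec a ha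
  obtain ⟨c₂, q₂, hq₂, h2⟩ := hdec b hb
  let f : A →* N := Subgroup.inclusion hAN
  have hQ : IsPGroup p ((P : Subgroup A).map f) := P.isPGroup'.map f
  have hc12 := hab.comm_of_isPGroup hQ (f q₁) ⟨q₁, hq₁, rfl⟩ (f q₂) ⟨q₂, hq₂, rfl⟩
  have hc12' : (q₁ : H) * (q₂ : H) = (q₂ : H) * (q₁ : H) := congrArg Subtype.val hc12
  have hcρ : ρ (q₁ : H) * ρ (q₂ : H) = ρ (q₂ : H) * ρ (q₁ : H) := by
    rw [← map_mul, ← map_mul, hc12']
  rw [h1, h2, smul_mul_smul_comm, smul_mul_smul_comm, hcρ, mul_comm c₁ c₂]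

end Exists

section Main

/-- The factorization `H = N T` when `ψ_N` is irreducible. -/
theorem exists_factorization {H : Type u} [Group H] [Fintype H] {N A : Subgroup H} (hN : N.Normal)
    (hA : A.Normal) (hAN : A ≤ N) [Fintype A] {ψ : H → ℂ} (hψ : IsIrrCharacter H ψ)
    (hψN : IsIrrCharacter N (fun n : N => ψ n)) {lam : A → ℂ} (hlam : IsIrrCharacter A lam)
    (hcon : classInner (fun a : A => ψ a) lam ≠ 0) (h : H) :
    ∃ k ∈ N, ∃ t ∈ inertia hA lam, h = k * t := by
  classical
  letI : Fintype N := Fintype.ofFinite N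
  let A' : Subgroup N := A.subgroupOf N
  have hA' : A'.Normal := hA.subgroupOf N
  letI : Fintype A' := Fintype.ofFinite A'
  let e : A' ≃* A := Subgroup.subgroupOfEquivOfLe hAN
  have hres : (fun x : A' => (fun n : N => ψ n) x) = (fun a : A => ψ a) ∘ e := rfl
  have hlam' : IsIrrCharacter A' (lam ∘ e) := isIrrCharacter_comp_mulEquiv e hlam
  have hcon' : classInner (fun x : A' => (fun n : N => ψ n) x) (lam ∘ e) ≠ 0 := by
    rw [hres, classInner_comp_mulEquiv]
    exact hcon
  have hcf := isClassFunction_of_isIrrCharacter hψ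
  have hμ : IsIrrCharacter A (conjOn hA h lam) := isIrrCharacter_conjOn hA h hlam
  have hμ' : IsIrrCharacter A' (conjOn hA h lam ∘ e) := isIrrCharacter_comp_mulEquiv e hμ
  have hcon'' : classInner (fun x : A' => (fun n : N => ψ n) x) (conjOn hA h lam ∘ e) ≠ 0 := by
    rw [hres, classInner_comp_mulEquiv, classInner_restrict_conjOn hA hcf]
    exact hcon
  obtain ⟨n, hn⟩ : ∃ n : N, conjOn hA' n (lam ∘ e) = conjOn hA h lam ∘ e := by
    by_contra hne
    push Not at hne
    exact hcon'' (classInner_restrict_eq_zero_of_not_conj hA' hψN hlam' hμ' hcon' hne)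
  have hval : ∀ (a : H) (ha : a ∈ A), lam ⟨(n : H) * a * (n : H)⁻¹, hA.conj_mem a ha n⟩ =
      lam ⟨h * a * h⁻¹, hA.conj_mem a ha h⟩ := by
    intro a ha
    have := congrFun hn ⟨⟨a, hAN ha⟩, Subgroup.mem_subgroupOf.mpr ha⟩
    exact this
  have ht : h * (n : H)⁻¹ ∈ inertia hA lam := by
    change conjOn hA (h * (n : H)⁻¹) lam = lam
    funext b
    rw [conjOn_apply]
    have hb := b.2
    have hna : (n : H)⁻¹ * b * (n : H) ∈ A := by
      have := hA.conj_mem b hb (n : H)⁻¹
      rwa [inv_inv] at this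
    have h1 := hval _ hna
    have h2 : (⟨(n : H) * ((n : H)⁻¹ * b * (n : H)) * (n : H)⁻¹, hA.conj_mem _ hna n⟩ : A) = b :=
      Subtype.ext (by simp [mul_assoc])
    rw [h2] at h1
    rw [h1]
    congr 1
    apply Subtype.ext
    simp
    group
  refine ⟨(h * (n : H)⁻¹) * n * (h * (n : H)⁻¹)⁻¹, hN.conj_mem _ n.2 _, h * (n : H)⁻¹, ht, ?_⟩
  group

/-- Irreducible characters with irreducible restriction to a normal subgroup with abelian Sylow
subgroups, in a solvable group, are monomial. -/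
theorem exists_linear_of_restrict_irr : ∀ (n : ℕ) (H : Type u) [Group H] [Fintype H]
    (N : Subgroup H) (_ : N.Normal), Fintype.card H = n → Group.IsSolvable H → AbSylow N →
    ∀ ψ : H → ℂ, IsIrrCharacter H ψ → IsIrrCharacter N (fun n : N => ψ n) →
    ∃ (U : Subgroup H) (lam : U →* ℂˣ), ψ = indFun U (fun u => (lam u : ℂ)) := by
  classical
  intro n
  induction n using Nat.strong_induction_on with
  | _ n ih =>
    intro H _ _ N hN hn hsolv hab ψ hψ hψN
    have hcf := isClassFunction_of_isIrrCharacter hψ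
    obtain ⟨m, ρ, hρ, hρψ⟩ := id hψ
    by_cases hNZ : N ≤ scalarSubgroup ρ
    · -- degree one
      let ρN : Representation ℂ N (Fin m → ℂ) := ρ.comp N.subtype
      have hchar : ρN.character = fun n : N => ψ n := by
        funext x
        rw [← hρψ]
        rfl
      have hirr : ρN.IsIrreducible :=
        Cfsg.Agent.Lib.Char.Extend.isIrreducible_of_isIrrCharacter (by rw [hchar]; exact hψN)
      have htop : scalarSubgroup ρN = ⊤ := by
        rw [eq_top_iff]
        intro x _
        exact hNZ x.2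
      have hfr := finrank_eq_one_of_scalarSubgroup_eq_top ρN hirr htop
      have h1 : ψ 1 = 1 := by
        rw [← hρψ, Representation.char_one]
        have : finrank ℂ (Fin m → ℂ) = 1 := hfr
        rw [this]
        simp
      obtain ⟨lam, hlam⟩ := exists_hom_of_deg_one (isCharacter_of_isIrrCharacter hψ) h1
      refine ⟨⊤, lam.comp (⊤ : Subgroup H).subtype, ?_⟩
      have := indFun_top hcf
      rw [hlam] at this ⊢
      exact this.symm
    · obtain ⟨A, hA, hAN, hAZ, hcomm⟩ := exists_normal_commuting hsolv ρ hN hab hNZ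
      letI : Fintype A := Fintype.ofFinite A
      have hρψ' : ρ.character = ψ := hρψ
      have hχA : (fun a : A => ψ a) ≠ 0 := by
        intro h0
        have := congrFun h0 1
        simp only [OneMemClass.coe_one, Pi.zero_apply] at this
        exact irr_one_ne_zero hψ this
      have hcfA : IsClassFunction A (fun a : A => ψ a) :=
        isClassFunction_of_isCharacter (isCharacter_restrict A (isCharacter_of_isIrrCharacter hψ))
      obtain ⟨ϑ, hϑ, hcon⟩ := exists_irr_constituent hcfA hχA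
      have hI : inertia hA ϑ ≠ ⊤ := by
        intro hI
        apply hAZ
        refine le_scalarSubgroup_of_invariant ρ hρ hA hcomm hϑ ?_ hI
        rw [hρψ']
        exact hcon
      set T := inertia hA ϑ with hTdef
      letI : Fintype T := Fintype.ofFinite T
      have hAT : A ≤ T := le_inertia hA (isClassFunction_of_isIrrCharacter hϑ)
      obtain ⟨ψ₁, hψ₁, hind, -⟩ := exists_irr_inertia_of_lies_over hA hAT hϑ hTdef hψ hcon
      have hlt : Fintype.card T < n := by
        rw [← hn, ← Nat.card_eq_fintype_card, ← Nat.card_eq_fintype_card]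
        exact lt_of_le_of_ne (Subgroup.card_le_card_group T)
          (fun h => hI (Subgroup.eq_top_of_card_eq T h))
      letI : Fintype N := Fintype.ofFinite N
      have hfac := exists_factorization hN hA hAN hψ hψN hϑ hcon
      have hM := restrict_indFun_of_factorization (T := T) (K := N) hfac
        (isClassFunction_of_isIrrCharacter hψ₁)
      rw [hind] at hM
      letI : Fintype (T.subgroupOf N) := Fintype.ofFinite _
      have hgc : IsCharacter (T.subgroupOf N)
          (fun x => ψ₁ ⟨((x : N) : H), Subgroup.mem_subgroupOf.mp x.2⟩) := by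
        let f : T.subgroupOf N →* T :=
          { toFun := fun x => ⟨((x : N) : H), Subgroup.mem_subgroupOf.mp x.2⟩
            map_one' := rfl
            map_mul' := fun _ _ => rfl }
        exact isCharacter_comp f (isCharacter_of_isIrrCharacter hψ₁)
      have hgirr := isIrr_of_indFun_isIrr _ hgc (by rw [← hM]; exact hψN)
      let e : N.subgroupOf T ≃* T.subgroupOf N :=
        { toFun := fun x => ⟨⟨((x : T) : H), Subgroup.mem_subgroupOf.mp x.2⟩,
            Subgroup.mem_subgroupOf.mpr (x : T).2⟩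
          invFun := fun x => ⟨⟨((x : N) : H), Subgroup.mem_subgroupOf.mp x.2⟩,
            Subgroup.mem_subgroupOf.mpr (x : N).2⟩
          left_inv := fun _ => rfl
          right_inv := fun _ => rfl
          map_mul' := fun _ _ => rfl }
      have hirrNT : IsIrrCharacter (N.subgroupOf T) (fun x : N.subgroupOf T => ψ₁ x) :=
        isIrrCharacter_comp_mulEquiv e hgirr
      let e₂ : N.subgroupOf T →* N :=
        { toFun := fun x => ⟨((x : T) : H), Subgroup.mem_subgroupOf.mp x.2⟩
          map_one' := rfl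
          map_mul' := fun _ _ => rfl }
      have he₂ : Function.Injective e₂ := by
        intro a b h
        have h' : ((a : T) : H) = ((b : T) : H) := congrArg (fun z : N => (z : H)) h
        exact Subtype.ext (Subtype.ext h')
      have habT : AbSylow (N.subgroupOf T) := hab.of_injective e₂ he₂
      obtain ⟨S, μ, hμ⟩ := ih _ hlt T (N.subgroupOf T) (hN.subgroupOf T) rfl inferInstance habT
        ψ₁ hψ₁ hirrNT
      refine ⟨S.map T.subtype,
        μ.comp (S.equivMapOfInjective T.subtype T.subtype_injective).symm.toMonoidHom, ?_⟩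
      rw [← hind, hμ, indFun_indFun_map]
      rfl

/-- Relative M-groups over normal subgroups with abelian Sylow subgroups are M-groups. -/
theorem exists_linear_of_relative {G : Type u} [Group G] [Fintype G] (hsolv : Group.IsSolvable G)
    (N : Subgroup G) (hN : N.Normal) (hab : AbSylow N)
    (hrel : ∀ χ : G → ℂ, IsIrrCharacter G χ → ∃ (H : Subgroup G) (hNH : N ≤ H) (ψ : H → ℂ),
      IsIrrCharacter H ψ ∧ indFun H ψ = χ ∧ IsIrrCharacter N (fun n : N => ψ ⟨(n : G), hNH n.2⟩))
    (χ : G → ℂ) (hχ : IsIrrCharacter G χ) :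
    ∃ (U : Subgroup G) (lam : U →* ℂˣ), χ = indFun U (fun u => (lam u : ℂ)) := by
  classical
  obtain ⟨H, hNH, ψ, hψ, hind, hres⟩ := hrel χ hχ
  letI : Fintype H := Fintype.ofFinite H
  let eqv : N.subgroupOf H ≃* N := Subgroup.subgroupOfEquivOfLe hNH
  have hirr : IsIrrCharacter (N.subgroupOf H) (fun x : N.subgroupOf H => ψ x) :=
    isIrrCharacter_comp_mulEquiv eqv hres
  have habH : AbSylow (N.subgroupOf H) := hab.of_injective eqv.toMonoidHom eqv.injective
  obtain ⟨S, μ, hμ⟩ := exists_linear_of_restrict_irr _ H (N.subgroupOf H) (hN.subgroupOf H) rfl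
    inferInstance habH ψ hψ hirr
  refine ⟨S.map H.subtype,
    μ.comp (S.equivMapOfInjective H.subtype H.subtype_injective).symm.toMonoidHom, ?_⟩
  rw [← hind, hμ, indFun_indFun_map]
  rfl

end Main

end Cfsg.Agent.Lib.Char.AbSylow
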