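import Cfsg.Agent.Lib.Char.IndSpan
import Mathlib.GroupTheory.SpecificGroups.Cyclic.Basic
import Mathlib.Tactic

/-!
# Artin's induction theorem
-/

set_option autoImplicit false

namespace Cfsg.Agent.Lib.Char.Artin

open Cfsg Module
open Cfsg.Agent.Lib.Char.Basic Cfsg.Agent.Lib.Char.Ortho Cfsg.Agent.Lib.Char.Complete
open Cfsg.Agent.Lib.Char.Induced
open Cfsg.Agent.Lib.Char.GenLattice Cfsg.Agent.Lib.Char.Linear
open Cfsg.Agent.Lib.Char.Monomial Cfsg.Agent.Lib.Char.Gallagher
open Cfsg.Agent.Lib.Char.IndSpan

universe u

open Classical in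
/-- The function taking the value `|A|` on generators of `A` and `0` elsewhere. -/
noncomputable def genFun (A : Type u) [Group A] : A → ℂ :=
  fun a => if ∀ b : A, b ∈ Subgroup.zpowers a then (Nat.card A : ℂ) else 0

theorem genFun_equiv {A B : Type u} [Group A] [Group B] (e : A ≃* B) (a : A) :
    genFun B (e a) = genFun A a := by
  classical
  have hiff : (∀ b : B, b ∈ Subgroup.zpowers (e a)) ↔ ∀ b : A, b ∈ Subgroup.zpowers a := by
    constructor
    · intro h b
      obtain ⟨k, hk⟩ := h (e b)
      refine ⟨k, ?_⟩
      apply e.injective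
      simpa using hk
    · intro h b
      obtain ⟨k, hk⟩ := h (e.symm b)
      refine ⟨k, ?_⟩
      have := congrArg e hk
      simpa using this
  simp only [genFun, hiff, Nat.card_congr e.toEquiv]

theorem isClassFunction_genFun (A : Type u) [Group A] : IsClassFunction A (genFun A) := by
  intro g h
  exact genFun_equiv (MulAut.conj h) g

theorem genFun_eq_zero_of_not_cyclic {A : Type u} [Group A] (h : ¬ IsCyclic A) :
    genFun A = 0 := by
  classical
  funext a
  simp only [genFun, Pi.zero_apply]
  rw [if_neg]
  intro ha
  exact h ⟨a, ha⟩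

open Classical in
theorem extendByZero_genFun {A : Type u} [Group A] (B : Subgroup A) (y : A) :
    extendByZero B (genFun B) y = if Subgroup.zpowers y = B then (Nat.card B : ℂ) else 0 := by
  by_cases hy : y ∈ B
  · rw [extendByZero_of_mem _ _ hy]
    have hiff : (∀ b : B, b ∈ Subgroup.zpowers (⟨y, hy⟩ : B)) ↔ Subgroup.zpowers y = B := by
      constructor
      · intro h
        apply le_antisymm
        · rw [Subgroup.zpowers_le]
          exact hy
        · intro b hb
          obtain ⟨k, hk⟩ := h ⟨b, hb⟩
          refine ⟨k, ?_⟩
          have := congrArg Subtype.val hk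
          simpa using this
      · intro h b
        have hb : (b : A) ∈ Subgroup.zpowers y := by
          rw [h]
          exact b.2
        obtain ⟨k, hk⟩ := hb
        refine ⟨k, ?_⟩
        apply Subtype.ext
        simpa using hk
    simp only [genFun, hiff]
  · rw [extendByZero_of_not_mem _ _ hy, if_neg]
    intro h
    exact hy (h ▸ Subgroup.mem_zpowers y)

/-- The sum over all subgroups of the functions induced from `genFun` is constant `|A|`. -/
theorem sum_indFun_genFun {A : Type u} [Group A] [Fintype A] [Fintype (Subgroup A)] :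
    ∑ B : Subgroup A, indFun B (genFun B) = fun _ => (Nat.card A : ℂ) := by
  classical
  funext g
  rw [Finset.sum_apply]
  have h1 : ∀ B : Subgroup A, indFun B (genFun B) g =
      ∑ x : A, if Subgroup.zpowers (x⁻¹ * g * x) = B then (1 : ℂ) else 0 := by
    intro B
    rw [indFun_apply, Finset.mul_sum]
    refine Finset.sum_congr rfl fun x _ => ?_
    rw [extendByZero_genFun]
    have hB : (Nat.card B : ℂ) ≠ 0 := card_ne_zero'
    split_ifs
    · exact inv_mul_cancel₀ hB
    · simp
  simp only [h1]
  rw [Finset.sum_comm]
  simp only [Finset.sum_ite_eq, Finset.mem_univ, if_true, Finset.sum_const, Finset.card_univ,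
    nsmul_eq_mul, mul_one, Nat.card_eq_fintype_card]

/-- `genFun` is a generalized character. -/
theorem isGenChar_genFun : ∀ (A : Type u) [Group A] [Finite A],
    IsGeneralizedCharacter A (genFun A) := by
  classical
  suffices h : ∀ (n : ℕ) (A : Type u) [Group A] [Finite A], Nat.card A = n →
      IsGeneralizedCharacter A (genFun A) by
    intro A _ _
    exact h _ A rfl
  intro n
  induction n using Nat.strong_induction_on with
  | _ n ih =>
    intro A _ _ hn
    letI : Fintype A := Fintype.ofFinite A
    letI : Fintype (Subgroup A) := Fintype.ofFinite _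
    have hsum := sum_indFun_genFun (A := A)
    rw [← Finset.add_sum_erase _ _ (Finset.mem_univ (⊤ : Subgroup A))] at hsum
    have htop : indFun (⊤ : Subgroup A) (genFun (⊤ : Subgroup A)) = genFun A := by
      have h1 : genFun (⊤ : Subgroup A) = fun h : (⊤ : Subgroup A) => genFun A (h : A) := by
        funext h
        exact (genFun_equiv (Subgroup.topEquiv (G := A)) h).symm
      rw [h1]
      exact indFun_top (isClassFunction_genFun A)
    rw [htop] at hsum
    have heq : genFun A = (fun _ => (Nat.card A : ℂ)) -
        ∑ B ∈ Finset.univ.erase (⊤ : Subgroup A), indFun B (genFun B) := by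
      rw [← hsum]
      abel
    rw [heq]
    refine isGenChar_sub ?_ ?_
    · have := isGenChar_nsmul (isGenChar_one (G := A)) (Nat.card A)
      convert this using 1
      funext g
      simp
    · refine isGenChar_sum _ _ fun B hB => ?_
      have hB' : B ≠ ⊤ := (Finset.mem_erase.mp hB).1
      have hlt : Nat.card B < n := by
        rw [← hn]
        exact lt_of_le_of_ne (Subgroup.card_le_card_group B)
          (fun h => hB' (Subgroup.eq_top_of_card_eq B h))
      exact isGenChar_indFun B (ih _ hlt B rfl)

/-- **Artin's induction theorem**. -/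
theorem card_smul_mem_homSpan {G : Type u} [Group G] [Fintype G] {χ : G → ℂ}
    (hχ : IsGeneralizedCharacter G χ) :
    (Nat.card G : ℂ) • χ ∈ homSpan (fun A : Subgroup G => IsCyclic A) := by
  classical
  letI : Fintype (Subgroup G) := Fintype.ofFinite _
  have hcf := isClassFunction_of_isGenChar hχ
  have heq : (Nat.card G : ℂ) • χ = ∑ B : Subgroup G, indFun B (genFun B * fun h : B => χ h) := by
    have h1 : (Nat.card G : ℂ) • χ = (fun _ => (Nat.card G : ℂ)) * χ := by
      funext g
      simp
    rw [h1, ← sum_indFun_genFun (A := G), Finset.sum_mul]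
    refine Finset.sum_congr rfl fun B _ => ?_
    exact indFun_mul_of_isClassFunction B _ hcf
  rw [heq]
  refine AddSubgroup.sum_mem _ fun B _ => ?_
  by_cases hB : IsCyclic B
  · refine indFun_mem_homSpan_of_comm hB (fun a b => hB.commGroup.mul_comm a b) ?_
    exact isGenChar_mul (isGenChar_genFun B) (isGenChar_restrict B hχ)
  · rw [genFun_eq_zero_of_not_cyclic hB]
    have : indFun B ((0 : B → ℂ) * fun h : B => χ h) = 0 := by
      rw [zero_mul]
      funext g
      simp [indFun_apply, extendByZero_eq_dite]
    rw [this]
    exact AddSubgroup.zero_mem _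

end Cfsg.Agent.Lib.Char.Artin
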