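import Cfsg.Agent.Lib.Char.OrbitalMult
import Cfsg.Agent.Lib.Char.InvCount

/-!
# Self-paired orbitals
-/

set_option autoImplicit false

namespace Cfsg.Agent.Lib.Char.OrbitalPair

open Cfsg Module MulAction
open Cfsg.Agent.Lib.Char.Basic Cfsg.Agent.Lib.Char.Decomp Cfsg.Agent.Lib.Char.Ortho
open Cfsg.Agent.Lib.Char.Complete Cfsg.Agent.Lib.Char.Centralizer Cfsg.Agent.Lib.Char.Orbital
open Cfsg.Agent.Lib.Char.OrbitalMult
open scoped ComplexConjugate

universe u v

variable {G : Type u} [Group G] {Ω : Type v} [MulAction G Ω]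
variable [Fintype G] [Fintype Ω]

/-- The permutation character as a sum. -/
lemma permChar_eq_sum [DecidableEq Ω] (g : G) :
    (Nat.card (fixedBy Ω g) : ℂ) = ∑ x : Ω, if g • x = x then (1 : ℂ) else 0 := by
  rw [Finset.sum_boole, Nat.card_eq_fintype_card, Fintype.card_subtype]
  rfl

/-- All pairs are interchanged: the two sums agree. -/
lemma sum_perm_sq_eq_of_swap [DecidableEq Ω]
    (h : ∀ a b : Ω, ∃ g : G, g • a = b ∧ g • b = a) :
    ∑ g : G, (Nat.card (fixedBy Ω g) : ℂ) * (Nat.card (fixedBy Ω g) : ℂ) =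
      ∑ g : G, (Nat.card (fixedBy Ω (g * g)) : ℂ) := by
  have h1 : ∀ g : G, (Nat.card (fixedBy Ω g) : ℂ) * (Nat.card (fixedBy Ω g) : ℂ) =
      ∑ x : Ω, ∑ y : Ω, if g • x = x ∧ g • y = y then (1 : ℂ) else 0 := by
    intro g
    rw [permChar_eq_sum, Finset.sum_mul]
    refine Finset.sum_congr rfl fun x _ => ?_
    rw [Finset.mul_sum]
    refine Finset.sum_congr rfl fun y _ => ?_
    by_cases hx : g • x = x <;> by_cases hy : g • y = y <;> simp [hx, hy]
  have h2 : ∀ g : G, (Nat.card (fixedBy Ω (g * g)) : ℂ) =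
      ∑ x : Ω, ∑ y : Ω, if g • x = y ∧ g • y = x then (1 : ℂ) else 0 := by
    intro g
    rw [permChar_eq_sum]
    refine Finset.sum_congr rfl fun x _ => ?_
    rw [Finset.sum_eq_single (g • x)]
    · simp [mul_smul]
    · intro y _ hy
      rw [if_neg]
      exact fun h' => hy h'.1.symm
    · simp
  simp only [h1, h2]
  rw [Finset.sum_comm]
  rw [Finset.sum_comm (s := Finset.univ (α := G))]
  refine Finset.sum_congr rfl fun x _ => ?_
  rw [Finset.sum_comm]
  rw [Finset.sum_comm (s := Finset.univ (α := G))]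
  refine Finset.sum_congr rfl fun y _ => ?_
  obtain ⟨g₀, hg₁, hg₂⟩ := h x y
  refine Fintype.sum_equiv (Equiv.mulLeft g₀) _ _ fun g => ?_
  simp only [Equiv.coe_mulLeft, mul_smul]
  by_cases hx : g • x = x
  · by_cases hy : g • y = y
    · rw [if_pos ⟨hx, hy⟩, if_pos]
      rw [hx, hy]
      exact ⟨hg₁, hg₂⟩
    · rw [if_neg (fun h' => hy h'.2), if_neg]
      rintro ⟨-, h3⟩
      apply hy
      rw [← hg₂] at h3
      exact MulAction.injective g₀ h3
  · rw [if_neg (fun h' => hx h'.1), if_neg]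
    rintro ⟨h3, -⟩
    apply hx
    rw [← hg₁] at h3
    exact MulAction.injective g₀ h3

/-- All pairs interchanged implies multiplicity free, real constituents. -/
theorem multFree_real_of_swap [IsPretransitive G Ω]
    (h : ∀ a b : Ω, ∃ g : G, g • a = b ∧ g • b = a) :
    ∀ χ : G → ℂ, IsIrrCharacter G χ →
      classInner (fun g : G => (Nat.card (fixedBy Ω g) : ℂ)) χ ≠ 0 →
      classInner (fun g : G => (Nat.card (fixedBy Ω g) : ℂ)) χ = 1 ∧
        ∀ g : G, conj (χ g) = χ g := by
  classical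
  have := finite_irrCharacter (G := G)
  letI := Fintype.ofFinite (IrrCharacter G)
  have hex : ∀ χ : IrrCharacter G, ∃ n : ℕ,
      classInner (fun g : G => (Nat.card (fixedBy Ω g) : ℂ)) (χ : G → ℂ) = n := fun χ =>
    exists_nat_classInner isCharacter_permChar (isCharacter_of_isIrrCharacter χ.2)
  choose m hm using hex
  choose ν hν0 hν1 hν2 using fun χ : IrrCharacter G =>
    Cfsg.Agent.Lib.Char.InvCount.exists_int_indicator (χ : G → ℂ) χ.2
  have hc : IsClassFunction G (fun g : G => (Nat.card (fixedBy Ω g) : ℂ)) :=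
    isClassFunction_of_isCharacter isCharacter_permChar
  have hexp : ∀ g : G, (Nat.card (fixedBy Ω g) : ℂ) = ∑ χ : IrrCharacter G, (m χ : ℂ) * (χ : G → ℂ) g := by
    intro g
    have h1 := congrFun (classFunction_eq_sum hc) g
    simp only [Finset.sum_apply, Pi.smul_apply, smul_eq_mul, hm] at h1
    exact h1
  -- the norm
  have hnorm : (Nat.card G : ℂ)⁻¹ * ∑ g : G, (Nat.card (fixedBy Ω g) : ℂ) * (Nat.card (fixedBy Ω g) : ℂ) =
      ∑ χ : IrrCharacter G, ((m χ : ℂ)) ^ 2 := by
    have h1 := classInner_eq_sum (φ := fun g : G => (Nat.card (fixedBy Ω g) : ℂ)) hc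
    rw [classInner_def] at h1
    simp only [Complex.conj_natCast, hm] at h1
    rw [h1]
    refine Finset.sum_congr rfl fun χ _ => ?_
    rw [pow_two]
  have hind : (Nat.card G : ℂ)⁻¹ * ∑ g : G, (Nat.card (fixedBy Ω (g * g)) : ℂ) =
      ∑ χ : IrrCharacter G, (m χ : ℂ) * (ν χ : ℂ) := by
    simp only [hexp]
    rw [Finset.sum_comm, Finset.mul_sum]
    refine Finset.sum_congr rfl fun χ _ => ?_
    rw [← hν1 χ, ← Finset.mul_sum]
    ring
  rw [sum_perm_sq_eq_of_swap h, hind] at hnorm
  have hint : ∑ χ : IrrCharacter G, (m χ : ℤ) * ν χ = ∑ χ : IrrCharacter G, ((m χ : ℤ)) ^ 2 := by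
    have : ((∑ χ : IrrCharacter G, (m χ : ℤ) * ν χ : ℤ) : ℂ) =
        ((∑ χ : IrrCharacter G, ((m χ : ℤ)) ^ 2 : ℤ) : ℂ) := by
      push_cast
      exact hnorm
    exact_mod_cast this
  have hle : ∀ χ ∈ (Finset.univ : Finset (IrrCharacter G)), (m χ : ℤ) * ν χ ≤ ((m χ : ℤ)) ^ 2 := by
    intro χ _
    have h0 : (0 : ℤ) ≤ m χ := by positivity
    rcases hν0 χ with h1 | h1 | h1 <;> rw [h1] <;> nlinarith
  have heq := (Finset.sum_eq_sum_iff_of_le hle).mp hint
  intro χ hχ hne
  have h1 := heq ⟨χ, hχ⟩ (Finset.mem_univ _)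
  have hm0 : m ⟨χ, hχ⟩ ≠ 0 := by
    intro h0
    apply hne
    rw [hm ⟨χ, hχ⟩, h0]
    simp
  have hmpos : (0 : ℤ) < m ⟨χ, hχ⟩ := by positivity
  have h2 : ν ⟨χ, hχ⟩ = m ⟨χ, hχ⟩ := by
    have h3 : (m ⟨χ, hχ⟩ : ℤ) * (ν ⟨χ, hχ⟩ - m ⟨χ, hχ⟩) = 0 := by linear_combination h1
    rcases mul_eq_zero.mp h3 with h4 | h4
    · omega
    · omega
  have h3 : ν ⟨χ, hχ⟩ = 1 := by
    rcases hν0 ⟨χ, hχ⟩ with h4 | h4 | h4 <;> omega
  constructor
  · rw [hm ⟨χ, hχ⟩]
    have : (m ⟨χ, hχ⟩ : ℤ) = 1 := by omega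
    have h5 : m ⟨χ, hχ⟩ = 1 := by exact_mod_cast this
    rw [h5]
    simp
  · intro g
    have h4 := hν2 ⟨χ, hχ⟩ (by omega) g
    exact Complex.conj_eq_iff_im.mpr h4

/-- Multiplicity free and real constituents implies all pairs interchanged. -/
theorem swap_of_multFree_real
    (h : ∀ χ : G → ℂ, IsIrrCharacter G χ →
      classInner (fun g : G => (Nat.card (fixedBy Ω g) : ℂ)) χ ≠ 0 →
      classInner (fun g : G => (Nat.card (fixedBy Ω g) : ℂ)) χ = 1 ∧
        ∀ g : G, conj (χ g) = χ g) (a b : Ω) :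
    ∃ g : G, g • a = b ∧ g • b = a := by
  classical
  let C : Ω → Ω → ℂ := fun x y => ((orbKer G a b x y : ℤ) : ℂ) - ((orbKer G a b y x : ℤ) : ℂ)
  have hC : ∀ (g : G) x y, C (g • x) (g • y) = C x y := by
    intro g x y
    simp only [C, orbKer_smul]
  have hCconj : ∀ x y, conj (C x y) = C x y := by
    intro x y
    simp [C]
  have hCskew : ∀ x y, C y x = - C x y := by
    intro x y
    simp [C]
  have hA := kerOp_comm (M := C) hC
  have hzero : kerOp C = 0 := by
    apply eq_zero_of_comp_eq_zero (permRep ℂ G Ω) (kerOp C) hA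
    intro n ρ hρ f hf
    have hχ := isIrrCharacter_of_irrep ρ hρ
    by_cases h0 : classInner (fun g : G => (Nat.card (fixedBy Ω g) : ℂ)) ρ.character = 0
    · rw [permChar_eq, classInner_eq_finrank_homG] at h0
      have h1 : finrank ℂ (homG ρ (permRep ℂ G Ω)) = 0 := by exact_mod_cast h0
      have h2 : Subsingleton (homG ρ (permRep ℂ G Ω)) := Module.finrank_zero_iff.mp h1
      have h3 : (⟨f, hf⟩ : homG ρ (permRep ℂ G Ω)) = 0 := Subsingleton.elim _ _
      have h4 : f = 0 := congrArg Subtype.val h3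
      rw [h4, LinearMap.comp_zero]
    · obtain ⟨h1, h2⟩ := h _ hχ h0
      rw [permChar_eq, classInner_eq_finrank_homG] at h1
      have h3 : finrank ℂ (homG ρ (permRep ℂ G Ω)) = 1 := by exact_mod_cast h1
      have h4 := comp_eq_smul_of_finrank_eq_one ρ (permRep ℂ G Ω) (kerOp C) hA h3 f hf
      set c := classInner (theta (permRep ℂ G Ω) (kerOp C)) ρ.character with hc
      -- `c` is real
      have hcreal : conj c = c := by
        rw [hc, classInner_def, map_mul, map_sum]
        simp only [map_inv₀, Complex.conj_natCast]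
        congr 1
        refine Finset.sum_congr rfl fun g _ => ?_
        rw [map_mul, theta_kerOp, map_sum]
        simp only [hCconj]
        simp only [h2 g]
      by_cases hf0 : f = 0
      · rw [hf0, LinearMap.comp_zero]
      have hex : ∃ v, f v ≠ 0 := by
        by_contra hall
        push Not at hall
        exact hf0 (LinearMap.ext hall)
      obtain ⟨v, hv⟩ := hex
      set u : Ω → ℂ := f v with hu
      have hAu : ∀ x, ∑ y, C x y * u y = c * u x := by
        intro x
        have h5 := congrFun (LinearMap.congr_fun h4 v) x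
        simpa using h5
      set N : ℂ := ∑ x, conj (u x) * u x with hN
      have hNreal : N = ((∑ x, ‖u x‖ ^ 2 : ℝ) : ℂ) := by
        rw [hN]
        push_cast
        refine Finset.sum_congr rfl fun x _ => ?_
        rw [mul_comm, Complex.mul_conj, Complex.normSq_eq_norm_sq]
        push_cast
        rfl
      have hNpos : 0 < ∑ x, ‖u x‖ ^ 2 := by
        obtain ⟨x, hx⟩ := Function.ne_iff.mp hv
        have hx' : u x ≠ 0 := hx
        have : 0 < ‖u x‖ ^ 2 := by positivity
        exact lt_of_lt_of_le this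
          (Finset.single_le_sum (f := fun i => ‖u i‖ ^ 2) (fun j _ => by positivity) (Finset.mem_univ x))
      have hN0 : N ≠ 0 := by
        rw [hNreal]
        exact_mod_cast hNpos.ne'
      have hNconj : conj N = N := by
        rw [hNreal, Complex.conj_ofReal]
      set Q : ℂ := ∑ x, conj (u x) * ∑ y, C x y * u y with hQ
      have hQ1 : Q = c * N := by
        rw [hQ, hN, Finset.mul_sum]
        refine Finset.sum_congr rfl fun x _ => ?_
        rw [hAu]
        ring
      have hQ2 : conj Q = - Q := by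
        rw [hQ, map_sum, ← Finset.sum_neg_distrib]
        simp only [map_mul, Complex.conj_conj, map_sum, hCconj, Finset.mul_sum]
        rw [Finset.sum_comm]
        refine Finset.sum_congr rfl fun x _ => ?_
        rw [← Finset.sum_neg_distrib]
        refine Finset.sum_congr rfl fun y _ => ?_
        rw [hCskew y x]
        ring
      have hc0 : c = 0 := by
        rw [hQ1, map_mul, hNconj, hcreal] at hQ2
        have h5 : (c + c) * N = 0 := by linear_combination hQ2
        have h6 : c + c = 0 := (mul_eq_zero.mp h5).resolve_right hN0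
        have h7 : (2 : ℂ) * c = 0 := by linear_combination h6
        simpa using h7
      rw [h4, hc0, zero_smul]
  have h1 := congrFun (LinearMap.congr_fun hzero (Pi.single b 1)) a
  simp only [kerOp_apply, LinearMap.zero_apply, Pi.zero_apply] at h1
  rw [Finset.sum_eq_single b] at h1
  · simp only [Pi.single_eq_same, mul_one, C] at h1
    have h2 : orbKer G a b a b = 1 := by
      unfold orbKer
      rw [if_pos ⟨1, one_smul _ _, one_smul _ _⟩]
    rw [h2] at h1
    have h3 : orbKer G a b b a = 1 := by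
      have h4 : ((orbKer G a b b a : ℤ) : ℂ) = 1 := by
        push_cast at h1
        linear_combination -h1
      exact_mod_cast h4
    unfold orbKer at h3
    by_contra hcon
    rw [if_neg hcon] at h3
    exact zero_ne_one h3
  · intro y _ hy
    simp [Pi.single_eq_of_ne hy]
  · simp

/-- All suborbits self-paired iff the permutation character is multiplicity free with real constituents. -/
theorem swap_iff [IsPretransitive G Ω] :
    (∀ a b : Ω, ∃ g : G, g • a = b ∧ g • b = a) ↔
    ∀ χ : G → ℂ, IsIrrCharacter G χ →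
      classInner (fun g : G => (Nat.card (fixedBy Ω g) : ℂ)) χ ≠ 0 →
      classInner (fun g : G => (Nat.card (fixedBy Ω g) : ℂ)) χ = 1 ∧
        ∀ g : G, conj (χ g) = χ g :=
  ⟨multFree_real_of_swap, swap_of_multFree_real⟩

end Cfsg.Agent.Lib.Char.OrbitalPair
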