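import Mathlib.Analysis.Complex.Basic
import Mathlib.Tactic

/-!
# Arithmetic for groups of Wielandt type
-/

set_option autoImplicit false

namespace Cfsg.Agent.Lib.Char.WielandtArith

/-- The arithmetic of a strongly regular graph with `2m` vertices, with multiplicities `m - 1`, `m`. -/
theorem wielandt_arith {m k l : ℕ} (hm : 2 ≤ m) (hkl : 1 + k + l = 2 * m) (hk : 1 ≤ k) (hl : 1 ≤ l)
    {s t : ℂ} {lam mu : ℤ}
    (E1 : (k : ℂ) + ((m : ℂ) - 1) * s + m * t = 0)
    (E2 : (k : ℂ) ^ 2 + ((m : ℂ) - 1) * s ^ 2 + m * t ^ 2 = 2 * m * k)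
    (Qs : s ^ 2 = k + lam * s + mu * (-1 - s)) (Qt : t ^ 2 = k + lam * t + mu * (-1 - t)) :
    k = 1 ∨ l = 1 ∨ ∃ a : ℕ, 0 < a ∧ m = 2 * a ^ 2 + 2 * a + 1 ∧
      ((k = a * (2 * a + 1) ∧ l = (a + 1) * (2 * a + 1)) ∨
        (k = (a + 1) * (2 * a + 1) ∧ l = a * (2 * a + 1))) := by
  have hm0 : (m : ℂ) ≠ 0 := by
    have : m ≠ 0 := by omega
    exact_mod_cast this
  have hk0 : (k : ℂ) ≠ 0 := by
    have : k ≠ 0 := by omega
    exact_mod_cast this
  -- `s ≠ t`
  have hst : s ≠ t := by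
    intro hst
    subst hst
    have h1 : (k : ℂ) = -(2 * m - 1) * s := by linear_combination E1
    have h2 : (2 * (m : ℂ)) * k * (k - (2 * m - 1)) = 0 := by
      have h3 : (k : ℂ) ^ 2 + (2 * (m : ℂ) - 1) * s ^ 2 = 2 * m * k := by linear_combination E2
      have h4 : ((2 * (m : ℂ) - 1) * s) ^ 2 = (k : ℂ) ^ 2 := by rw [h1]; ring
      linear_combination (2 * (m : ℂ) - 1) * h3 - h4
    have h5 : (k : ℂ) - (2 * m - 1) = 0 := by
      have h6 : (2 * (m : ℂ)) * k ≠ 0 := by
        simp [hm0, hk0]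
      exact (mul_eq_zero.mp h2).resolve_left h6
    have h7 : ((k + 1 : ℕ) : ℂ) = ((2 * m : ℕ) : ℂ) := by
      push_cast
      linear_combination h5
    have h8 : k + 1 = 2 * m := by exact_mod_cast h7
    omega
  set U : ℤ := lam - mu with hU
  have hsum : s + t = (U : ℂ) := by
    have h1 : (s - t) * (s + t - U) = 0 := by
      rw [hU]
      push_cast
      linear_combination Qs - Qt
    have h2 : s - t ≠ 0 := sub_ne_zero.mpr hst
    have h3 := (mul_eq_zero.mp h1).resolve_left h2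
    linear_combination h3
  -- integrality
  set S : ℤ := (k : ℤ) + m * U with hS
  have hs : s = (S : ℂ) := by
    rw [hS]
    push_cast
    linear_combination (-1 : ℂ) * E1 + (m : ℂ) * hsum
  have ht : t = ((U - S : ℤ) : ℂ) := by
    push_cast
    rw [← hs]
    linear_combination hsum
  have E2' : (k : ℤ) ^ 2 + ((m : ℤ) - 1) * S ^ 2 + m * (U - S) ^ 2 = 2 * m * k := by
    have : (((k : ℤ) ^ 2 + ((m : ℤ) - 1) * S ^ 2 + m * (U - S) ^ 2 : ℤ) : ℂ) = ((2 * m * k : ℤ) : ℂ) := by
      push_cast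
      rw [hs, ht] at E2
      push_cast at E2
      linear_combination E2
    exact_mod_cast this
  -- the key identity
  set τ : ℤ := -U with hτ
  have hkτ : (k : ℤ) = S + m * τ := by
    rw [hτ, hS]
    ring
  have hUτ : U = -τ := by rw [hτ]; ring
  have hm0' : (m : ℤ) ≠ 0 := by
    have : m ≠ 0 := by omega
    exact_mod_cast this
  have E3 : 2 * S ^ 2 + 4 * S * τ + τ ^ 2 + m * τ ^ 2 - 2 * m * τ - 2 * S = 0 := by
    have : (m : ℤ) * (2 * S ^ 2 + 4 * S * τ + τ ^ 2 + m * τ ^ 2 - 2 * m * τ - 2 * S) = 0 := by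
      rw [hUτ, hkτ] at E2'
      linear_combination E2'
    exact (mul_eq_zero.mp this).resolve_left hm0'
  have hkey : (2 * S + 2 * τ - 1) ^ 2 = 1 - 2 * ((m : ℤ) - 1) * (τ * (τ - 2)) := by
    linear_combination 2 * E3
  have hm1 : (1 : ℤ) ≤ (m : ℤ) - 1 := by
    have : (2 : ℤ) ≤ m := by exact_mod_cast hm
    linarith
  have hτle : τ * (τ - 2) ≤ 0 := by
    by_contra hcon
    push Not at hcon
    have h1 : (1 : ℤ) ≤ τ * (τ - 2) := hcon
    have h2 : 0 ≤ (2 * S + 2 * τ - 1) ^ 2 := sq_nonneg _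
    rw [hkey] at h2
    nlinarith
  have hτ0 : 0 ≤ τ := by nlinarith
  have hτ2 : τ ≤ 2 := by nlinarith
  have hk' : (1 : ℤ) ≤ k := by exact_mod_cast hk
  have hl' : (1 : ℤ) ≤ l := by exact_mod_cast hl
  have hkl' : (1 : ℤ) + k + l = 2 * m := by exact_mod_cast hkl
  have hcases : τ = 0 ∨ τ = 1 ∨ τ = 2 := by omega
  rcases hcases with h0 | h1 | h2
  · -- `τ = 0`
    left
    rw [h0] at hkey hkτ
    have h3 : (2 * S - 1) ^ 2 = 1 := by
      linear_combination hkey
    have h4 : S = 0 ∨ S = 1 := by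
      have h5 : (2 * S - 1 - 1) * (2 * S - 1 + 1) = 0 := by linear_combination h3
      rcases mul_eq_zero.mp h5 with h6 | h6
      · right; omega
      · left; omega
    have h5 : (k : ℤ) = S := by rw [hkτ]; ring
    rcases h4 with h4 | h4
    · rw [h4] at h5
      omega
    · rw [h4] at h5
      omega
  · -- `τ = 1`
    right; right
    rw [h1] at hkey hkτ
    have h3' : 2 * (m : ℤ) = 2 * (2 * S ^ 2 + 2 * S + 1) := by
      linear_combination -hkey
    have h3 : (m : ℤ) = 2 * S ^ 2 + 2 * S + 1 := by linarith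
    have hk2 : (k : ℤ) = S + m := by rw [hkτ]; ring
    have hl2 : (l : ℤ) = m - 1 - S := by linarith
    rcases lt_trichotomy S 0 with hneg | hzero | hpos
    · by_cases hS1 : S = -1
      · exfalso
        rw [hS1] at h3
        have : (2 : ℤ) ≤ m := by exact_mod_cast hm
        omega
      · obtain ⟨a, ha⟩ := Int.eq_ofNat_of_zero_le (show 0 ≤ -S - 1 by omega)
        have hSa : S = -(a : ℤ) - 1 := by omega
        have ha0 : 0 < a := by omega
        refine ⟨a, ha0, ?_, Or.inl ⟨?_, ?_⟩⟩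
        · have : (m : ℤ) = 2 * (a : ℤ) ^ 2 + 2 * a + 1 := by rw [h3, hSa]; ring
          exact_mod_cast this
        · have : (k : ℤ) = a * (2 * a + 1) := by rw [hk2, h3, hSa]; ring
          exact_mod_cast this
        · have : (l : ℤ) = (a + 1) * (2 * a + 1) := by rw [hl2, h3, hSa]; ring
          exact_mod_cast this
    · exfalso
      rw [hzero] at h3
      have : (2 : ℤ) ≤ m := by exact_mod_cast hm
      omega
    · obtain ⟨a, ha⟩ := Int.eq_ofNat_of_zero_le hpos.le
      have hSa : S = (a : ℤ) := ha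
      have ha0 : 0 < a := by omega
      refine ⟨a, ha0, ?_, Or.inr ⟨?_, ?_⟩⟩
      · have : (m : ℤ) = 2 * (a : ℤ) ^ 2 + 2 * a + 1 := by rw [h3, hSa]
        exact_mod_cast this
      · have : (k : ℤ) = (a + 1) * (2 * a + 1) := by rw [hk2, h3, hSa]; ring
        exact_mod_cast this
      · have : (l : ℤ) = a * (2 * a + 1) := by rw [hl2, h3, hSa]; ring
        exact_mod_cast this
  · -- `τ = 2`
    right; left
    rw [h2] at hkey hkτ
    have h3 : (2 * S + 3) ^ 2 = 1 := by
      linear_combination hkey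
    have h4 : S = -1 ∨ S = -2 := by
      have h5 : (2 * S + 3 - 1) * (2 * S + 3 + 1) = 0 := by linear_combination h3
      rcases mul_eq_zero.mp h5 with h6 | h6
      · left; omega
      · right; omega
    have h5 : (k : ℤ) = S + 2 * m := by rw [hkτ]; ring
    rcases h4 with h4 | h4
    · rw [h4] at h5
      omega
    · rw [h4] at h5
      omega

end Cfsg.Agent.Lib.Char.WielandtArith
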