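import Cfsg.Agent.Lib.Char.OrbitalPair
import Cfsg.Agent.Lib.Char.WielandtArith
import Mathlib.GroupTheory.GroupAction.Blocks
import Mathlib.GroupTheory.GroupAction.Primitive

/-!
# Groups of Wielandt type
-/

set_option autoImplicit false

namespace Cfsg.Agent.Lib.Char.OrbitalWielandt

open Cfsg Module MulAction
open Cfsg.Agent.Lib.Char.Basic Cfsg.Agent.Lib.Char.Decomp Cfsg.Agent.Lib.Char.Ortho
open Cfsg.Agent.Lib.Char.Complete Cfsg.Agent.Lib.Char.Centralizer Cfsg.Agent.Lib.Char.Orbital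
open Cfsg.Agent.Lib.Char.OrbitalMult Cfsg.Agent.Lib.Char.OrbitalPair
open scoped ComplexConjugate Pointwise

universe u v

variable {G : Type u} [Group G] {Ω : Type v} [MulAction G Ω]
variable [Fintype G] [Fintype Ω]

/-- Composition of kernels. -/
lemma kerOp_comp (M N : Ω → Ω → ℂ) :
    kerOp M ∘ₗ kerOp N = kerOp (fun x y => ∑ z, M x z * N z y) := by
  refine LinearMap.ext fun f => funext fun x => ?_
  simp only [LinearMap.comp_apply, kerOp_apply, Finset.mul_sum, Finset.sum_mul]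
  rw [Finset.sum_comm]
  refine Finset.sum_congr rfl fun y _ => Finset.sum_congr rfl fun z _ => ?_
  ring

/-- Multiplicativity of the trace on a one dimensional multiplicity space (general form). -/
theorem classInner_theta_comp_general {V W : Type*} [AddCommGroup V] [Module ℂ V] [AddCommGroup W]
    [Module ℂ W] [FiniteDimensional ℂ V] [FiniteDimensional ℂ W]
    (ρ : Representation ℂ G V) (σ : Representation ℂ G W) {A B : W →ₗ[ℂ] W}
    (hA : ∀ g, A ∘ₗ σ g = σ g ∘ₗ A)
    (hB : ∀ g, B ∘ₗ σ g = σ g ∘ₗ B) (h2 : finrank ℂ (homG ρ σ) = 1) :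
    classInner (theta σ (A ∘ₗ B)) ρ.character =
      classInner (theta σ A) ρ.character * classInner (theta σ B) ρ.character := by
  obtain ⟨⟨f, hf⟩, hne, -⟩ := finrank_eq_one_iff'.mp h2
  have hf0 : f ≠ 0 := fun h => hne (Subtype.ext h)
  have hAB : ∀ g, (A ∘ₗ B) ∘ₗ σ g = σ g ∘ₗ (A ∘ₗ B) := by
    intro g
    have ca : Commute (A : Module.End ℂ W) (σ g) := hA g
    have cb : Commute (B : Module.End ℂ W) (σ g) := hB g
    exact ca.mul_left cb
  have e1 := comp_eq_smul_of_finrank_eq_one ρ _ A hA h2 f hf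
  have e2 := comp_eq_smul_of_finrank_eq_one ρ _ B hB h2 f hf
  have e3 := comp_eq_smul_of_finrank_eq_one ρ _ (A ∘ₗ B) hAB h2 f hf
  rw [LinearMap.comp_assoc, e2, LinearMap.comp_smul, e1, smul_smul] at e3
  have h3 : (classInner (theta σ (A ∘ₗ B)) ρ.character -
      classInner (theta σ B) ρ.character *
        classInner (theta σ A) ρ.character) • f = 0 := by
    rw [sub_smul, ← e3, sub_self]
  rcases smul_eq_zero.mp h3 with h4 | h4
  · rw [mul_comm]
    exact sub_eq_zero.mp h4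
  · exact absurd h4 hf0

/-- Multiplicativity of the trace on a one dimensional multiplicity space. -/
lemma classInner_theta_comp {A B : (Ω → ℂ) →ₗ[ℂ] (Ω → ℂ)}
    (hA : ∀ g, A ∘ₗ permRep ℂ G Ω g = permRep ℂ G Ω g ∘ₗ A)
    (hB : ∀ g, B ∘ₗ permRep ℂ G Ω g = permRep ℂ G Ω g ∘ₗ B) {χ : G → ℂ}
    (hχ : IsIrrCharacter G χ) (h1 : classInner (fun g : G => (Nat.card (fixedBy Ω g) : ℂ)) χ = 1) :
    classInner (theta (permRep ℂ G Ω) (A ∘ₗ B)) χ =
      classInner (theta (permRep ℂ G Ω) A) χ * classInner (theta (permRep ℂ G Ω) B) χ := by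
  obtain ⟨n, ρ, hρ, rfl⟩ := hχ
  rw [permChar_eq, classInner_eq_finrank_homG] at h1
  have h2 : finrank ℂ (homG ρ (permRep ℂ G Ω)) = 1 := by exact_mod_cast h1
  exact classInner_theta_comp_general ρ _ hA hB h2

/-- The kernel of the orbital at the base point. -/
lemma orbKer_self_of_mem {a b y : Ω} (hy : y ∈ orbit (stabilizer G a) b) :
    orbKer G a b a y = 1 := by
  classical
  unfold orbKer
  rw [if_pos]
  obtain ⟨⟨g, hg⟩, rfl⟩ := hy
  exact ⟨g, hg, rfl⟩

lemma orbKer_self_of_not_mem {a b y : Ω} (hy : y ∉ orbit (stabilizer G a) b) :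
    orbKer G a b a y = 0 := by
  classical
  unfold orbKer
  rw [if_neg]
  rintro ⟨g, hg, rfl⟩
  exact hy ⟨⟨g, hg⟩, rfl⟩

/-- A primitive group with a singleton suborbit acts with trivial point stabilizers. -/
lemma stabilizer_fixes_of_singleton [IsPreprimitive G Ω] {a b : Ω} (hb : b ≠ a)
    (h1 : Nat.card (orbit (stabilizer G a) b) = 1) (x : Ω) (h : G) (hh : h ∈ stabilizer G a) :
    h • x = x := by
  classical
  let H := stabilizer G a
  let B : Set Ω := {x | ∀ h ∈ H, h • x = x}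
  have hmem : ∀ x, x ∈ B ↔ H ≤ stabilizer G x := by
    intro x
    constructor
    · intro hx h hh
      exact hx h hh
    · intro hx h hh
      exact hx hh
  have ha : a ∈ B := fun h hh => hh
  have hbB : b ∈ B := by
    intro h hh
    have h2 : h • b ∈ orbit H b := ⟨⟨h, hh⟩, rfl⟩
    have h3 : b ∈ orbit H b := mem_orbit_self b
    have : Subsingleton (orbit H b) := by
      rw [Nat.card_eq_one_iff_unique] at h1
      exact h1.1
    have h4 := Subsingleton.elim (⟨_, h2⟩ : orbit H b) ⟨_, h3⟩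
    exact congrArg Subtype.val h4
  -- stabilizers of points of `B` coincide
  have hstab : ∀ x ∈ B, stabilizer G x = H := by
    intro x hx
    symm
    apply Subgroup.eq_of_le_of_card_ge ((hmem x).mp hx)
    have e1 := card_stabilizer_mul_card (G := G) a
    have e2 := card_stabilizer_mul_card (G := G) x
    have hcard : (Fintype.card Ω : ℂ) ≠ 0 := by
      have : Nonempty Ω := ⟨a⟩
      exact_mod_cast Fintype.card_ne_zero
    have e3 : (Nat.card (stabilizer G x) : ℂ) = (Nat.card H : ℂ) :=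
      mul_right_cancel₀ hcard (e2.trans e1.symm)
    have e4 : Nat.card (stabilizer G x) = Nat.card H := by exact_mod_cast e3
    exact e4.le
  -- `B` is a block
  have hblock : IsBlock G B := by
    rw [isBlock_iff_smul_eq_of_nonempty]
    have key : ∀ g : G, (∃ y ∈ B, g • y ∈ B) → g • B ⊆ B := by
      rintro g ⟨y, hy, hgy⟩ _ ⟨z, hz, rfl⟩ h hh
      -- `h` fixes `g y`, hence `g⁻¹ h g` fixes `y`, hence `z`
      have h2 : h ∈ stabilizer G (g • y) := by
        rw [hstab _ hgy]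
        exact hh
      have h3 : g⁻¹ * h * g ∈ stabilizer G y := by
        rw [mem_stabilizer_iff, mul_smul, mul_smul, inv_smul_eq_iff]
        exact h2
      rw [hstab y hy] at h3
      have h4 := hz _ h3
      rw [mul_smul, mul_smul, inv_smul_eq_iff] at h4
      exact h4
    intro g hg
    obtain ⟨w, ⟨z, hz, rfl⟩, hw⟩ := hg
    apply Set.Subset.antisymm
    · exact key g ⟨z, hz, hw⟩
    · intro v hv
      have h5 : g⁻¹ • v ∈ B := key g⁻¹ ⟨g • z, hw, by rwa [inv_smul_smul]⟩ ⟨v, hv, rfl⟩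
      exact ⟨g⁻¹ • v, h5, smul_inv_smul g v⟩
  rcases IsPreprimitive.isTrivialBlock_of_isBlock hblock with h2 | h2
  · exact absurd (h2 hbB ha) hb
  · have : x ∈ B := by rw [h2]; trivial
    exact this h hh

/-- Groups of Wielandt type. -/
theorem wielandt_type (hprim : IsPreprimitive G Ω) {m : ℕ} (hm : Fintype.card Ω = 2 * m) (a₀ : Ω)
    (hrank : Nat.card (orbitRel.Quotient (stabilizer G a₀) Ω) = 3) (χ₁ χ₂ : G → ℂ)
    (h₁ : IsIrrCharacter G χ₁) (h₂ : IsIrrCharacter G χ₂)
    (hπ : (fun g : G => (Nat.card (fixedBy Ω g) : ℂ)) = fun g => 1 + χ₁ g + χ₂ g)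
    (hd₁ : χ₁ 1 = (m : ℂ) - 1) (hd₂ : χ₂ 1 = m) :
    ∃ a : ℕ, 0 < a ∧ m = 2 * a ^ 2 + 2 * a + 1 ∧ ∀ b : Ω, b ≠ a₀ →
      Nat.card (orbit (stabilizer G a₀) b) = a * (2 * a + 1) ∨
      Nat.card (orbit (stabilizer G a₀) b) = (a + 1) * (2 * a + 1) := by
  classical
  have htrans : IsPretransitive G Ω := hprim.toIsPretransitive
  have := finite_irrCharacter (G := G)
  letI := Fintype.ofFinite (IrrCharacter G)
  letI : Fintype (orbitRel.Quotient (stabilizer G a₀) Ω) := Fintype.ofFinite _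
  set π : G → ℂ := fun g : G => (Nat.card (fixedBy Ω g) : ℂ) with hπdef
  have hone := isIrr_one (G := G)
  -- degrees
  obtain ⟨n₁, hn₁, hn₁1⟩ := exists_pos_deg_of_isIrr h₁
  have hm2 : 2 ≤ m := by
    have h1 : ((n₁ + 1 : ℕ) : ℂ) = m := by
      push_cast
      rw [← hn₁1, hd₁]
      ring
    have h2 : n₁ + 1 = m := by exact_mod_cast h1
    omega
  have hne12 : χ₁ ≠ χ₂ := by
    intro h
    rw [h, hd₂] at hd₁
    have : (0 : ℂ) = -1 := by linear_combination hd₁
    norm_num at this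
  -- inner products
  have hexp : ∀ ψ, classInner π ψ =
      classInner (fun _ => 1) ψ + classInner χ₁ ψ + classInner χ₂ ψ := by
    intro ψ
    rw [hπ]
    have : (fun g : G => 1 + χ₁ g + χ₂ g) = (fun _ => 1) + χ₁ + χ₂ := rfl
    rw [this, classInner_add_left, classInner_add_left]
  have hπ1 : classInner π (fun _ => 1) = 1 := classInner_permChar_one a₀
  have hne01 : χ₁ ≠ fun _ => 1 := by
    intro h
    have h2 := hexp (fun _ => 1)
    rw [hπ1, classInner_irr hone hone, if_pos rfl, classInner_irr h₁ hone, if_pos h] at h2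
    have h3 : classInner χ₂ (fun _ => 1) = -1 := by linear_combination -h2
    rw [classInner_irr h₂ hone] at h3
    split_ifs at h3 <;> norm_num at h3
  have hne02 : χ₂ ≠ fun _ => 1 := by
    intro h
    have h2 := hexp (fun _ => 1)
    rw [hπ1, classInner_irr hone hone, if_pos rfl, classInner_irr h₂ hone, if_pos h] at h2
    have h3 : classInner χ₁ (fun _ => 1) = -1 := by linear_combination -h2
    rw [classInner_irr h₁ hone] at h3
    split_ifs at h3 <;> norm_num at h3
  have hπχ₁ : classInner π χ₁ = 1 := by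
    rw [hexp, classInner_irr hone h₁, if_neg (Ne.symm hne01), classInner_irr h₁ h₁, if_pos rfl,
      classInner_irr h₂ h₁, if_neg (Ne.symm hne12)]
    simp
  have hπχ₂ : classInner π χ₂ = 1 := by
    rw [hexp, classInner_irr hone h₂, if_neg (Ne.symm hne02), classInner_irr h₁ h₂, if_neg hne12,
      classInner_irr h₂ h₂, if_pos rfl]
    simp
  have hπψ : ∀ ψ, IsIrrCharacter G ψ → ψ ≠ (fun _ => 1) → ψ ≠ χ₁ → ψ ≠ χ₂ → classInner π ψ = 0 := by
    intro ψ hψ h0 h1 h2
    rw [hexp, classInner_irr hone hψ, if_neg (Ne.symm h0), classInner_irr h₁ hψ, if_neg (Ne.symm h1),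
      classInner_irr h₂ hψ, if_neg (Ne.symm h2)]
    simp
  -- reality of the constituents
  have hπreal : ∀ g, conj (π g) = π g := by
    intro g
    simp [hπdef]
  have hconj : ∀ χ : G → ℂ, classInner π (fun g => conj (χ g)) = conj (classInner π χ) := by
    intro χ
    rw [classInner_def, classInner_def, map_mul, map_sum]
    simp only [map_inv₀, Complex.conj_natCast, map_mul, hπreal]
  have hd₁c : conj (χ₁ 1) = χ₁ 1 := by
    rw [hd₁]
    simp
  have hd₂c : conj (χ₂ 1) = χ₂ 1 := by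
    rw [hd₂]
    simp
  have hconst1 : ∀ χ : G → ℂ, (fun g => conj (χ g)) = (fun _ => (1 : ℂ)) → χ = fun _ => 1 := by
    intro χ h
    funext g
    have := congrArg (starRingEnd ℂ) (congrFun h g)
    simpa using this
  have hreal1 : (fun g => conj (χ₁ g)) = χ₁ := by
    have hi := Cfsg.Agent.Lib.Char.FrobSchur.isIrr_conj h₁
    by_contra hne
    have h0 : classInner π (fun g => conj (χ₁ g)) = 0 := by
      refine hπψ _ hi (fun h => hne01 (hconst1 _ h)) hne ?_
      intro h
      have h3 := congrFun h 1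
      rw [hd₁c, hd₁, hd₂] at h3
      have : (0 : ℂ) = 1 := by linear_combination h3
      exact zero_ne_one this
    rw [hconj, hπχ₁] at h0
    simp at h0
  have hreal2 : (fun g => conj (χ₂ g)) = χ₂ := by
    have hi := Cfsg.Agent.Lib.Char.FrobSchur.isIrr_conj h₂
    by_contra hne
    have h0 : classInner π (fun g => conj (χ₂ g)) = 0 := by
      refine hπψ _ hi (fun h => hne02 (hconst1 _ h)) ?_ hne
      intro h
      have h3 := congrFun h 1
      rw [hd₂c, hd₁, hd₂] at h3
      have : (0 : ℂ) = -1 := by linear_combination h3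
      norm_num at this
    rw [hconj, hπχ₂] at h0
    simp at h0
  have hswap : ∀ x y : Ω, ∃ g : G, g • x = y ∧ g • y = x := by
    apply swap_of_multFree_real
    intro ψ hψ hne
    by_cases h0 : ψ = fun _ => 1
    · subst h0
      exact ⟨hπ1, fun g => by simp⟩
    by_cases h1 : ψ = χ₁
    · subst h1
      exact ⟨hπχ₁, fun g => congrFun hreal1 g⟩
    by_cases h2 : ψ = χ₂
    · subst h2
      exact ⟨hπχ₂, fun g => congrFun hreal2 g⟩
    exact absurd (hπψ ψ hψ h0 h1 h2) hne
  -- the suborbits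
  let H := stabilizer G a₀
  let ω₀ : orbitRel.Quotient H Ω := Quotient.mk'' a₀
  have hcardω : (Finset.univ.erase ω₀).card = 2 := by
    rw [Finset.card_erase_of_mem (Finset.mem_univ _), Finset.card_univ, ← Nat.card_eq_fintype_card,
      hrank]
  obtain ⟨ω₁, ω₂, hω12, hω⟩ := Finset.card_eq_two.mp hcardω
  have hω₁ : ω₁ ≠ ω₀ := by
    have : ω₁ ∈ Finset.univ.erase ω₀ := by rw [hω]; simp
    exact (Finset.mem_erase.mp this).1
  have hω₂ : ω₂ ≠ ω₀ := by
    have : ω₂ ∈ Finset.univ.erase ω₀ := by rw [hω]; simp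
    exact (Finset.mem_erase.mp this).1
  have hallω : ∀ ω : orbitRel.Quotient H Ω, ω = ω₀ ∨ ω = ω₁ ∨ ω = ω₂ := by
    intro ω
    by_cases h0 : ω = ω₀
    · exact Or.inl h0
    · right
      have : ω ∈ Finset.univ.erase ω₀ := Finset.mem_erase.mpr ⟨h0, Finset.mem_univ _⟩
      rw [hω] at this
      simpa using this
  set b₁ : Ω := Quotient.out ω₁ with hb₁def
  set b₂ : Ω := Quotient.out ω₂ with hb₂def
  have horbit₀ : orbit H a₀ = {a₀} := by
    ext x
    rw [mem_orbit_iff, Set.mem_singleton_iff]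
    constructor
    · rintro ⟨⟨h, hh⟩, rfl⟩
      exact hh
    · rintro rfl
      exact ⟨1, one_smul _ _⟩
  have hmk₁ : (Quotient.mk'' b₁ : orbitRel.Quotient H Ω) = ω₁ := Quotient.out_eq' ω₁
  have hmk₂ : (Quotient.mk'' b₂ : orbitRel.Quotient H Ω) = ω₂ := Quotient.out_eq' ω₂
  have hb₁ : b₁ ≠ a₀ := by
    intro h
    apply hω₁
    rw [← hmk₁, h]
  have hb₂ : b₂ ≠ a₀ := by
    intro h
    apply hω₂
    rw [← hmk₂, h]
  have hmemiff : ∀ x y : Ω, x ∈ orbit H y ↔
      (Quotient.mk'' x : orbitRel.Quotient H Ω) = Quotient.mk'' y := by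
    intro x y
    exact (Quotient.eq'' (s₁ := orbitRel H Ω)).symm
  have hcover : ∀ y : Ω, y = a₀ ∨ y ∈ orbit H b₁ ∨ y ∈ orbit H b₂ := by
    intro y
    rcases hallω (Quotient.mk'' y) with h | h | h
    · left
      have : y ∈ orbit H a₀ := (hmemiff _ _).mpr h
      rw [horbit₀] at this
      exact this
    · right; left
      rw [hmemiff, hmk₁, h]
    · right; right
      rw [hmemiff, hmk₂, h]
  have hsep₁ : b₂ ∉ orbit H b₁ := by
    intro h
    rw [hmemiff, hmk₁, hmk₂] at h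
    exact hω12 h.symm
  have hsep₂ : b₁ ∉ orbit H b₂ := by
    intro h
    rw [hmemiff, hmk₁, hmk₂] at h
    exact hω12 h
  have ha₁ : a₀ ∉ orbit H b₁ := by
    intro h
    rw [hmemiff, hmk₁] at h
    exact hω₁ h.symm
  have ha₂ : a₀ ∉ orbit H b₂ := by
    intro h
    rw [hmemiff, hmk₂] at h
    exact hω₂ h.symm
  set k := Nat.card (orbit H b₁) with hk
  set l := Nat.card (orbit H b₂) with hl
  have hkpos : 1 ≤ k := by
    rw [hk, Nat.succ_le_iff, Nat.card_pos_iff]
    exact ⟨⟨⟨_, mem_orbit_self _⟩⟩, inferInstance⟩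
  have hlpos : 1 ≤ l := by
    rw [hl, Nat.succ_le_iff, Nat.card_pos_iff]
    exact ⟨⟨⟨_, mem_orbit_self _⟩⟩, inferInstance⟩
  have hkl : 1 + k + l = 2 * m := by
    have h1 := card_eq_sum_suborbits (Ω := Ω) H
    rw [← Finset.add_sum_erase _ _ (Finset.mem_univ ω₀), hω, Finset.sum_pair hω12] at h1
    have hout₀ : Quotient.out ω₀ = a₀ := by
      have h2 : Quotient.out ω₀ ∈ orbit H a₀ := Quotient.mk_out (s := orbitRel H Ω) a₀
      rw [horbit₀] at h2
      exact h2
    rw [hout₀, horbit₀] at h1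
    simp only [Nat.card_unique] at h1
    rw [hm] at h1
    change 2 * m = 1 + (k + l) at h1
    omega
  -- the kernels
  let N₁ : Ω → Ω → ℤ := orbKer G a₀ b₁
  let N₂ : Ω → Ω → ℤ := orbKer G a₀ b₂
  let K₁ : Ω → Ω → ℂ := fun x y => ((N₁ x y : ℤ) : ℂ)
  let K₂ : Ω → Ω → ℂ := fun x y => ((N₂ x y : ℤ) : ℂ)
  let δ : Ω → Ω → ℂ := fun x y => if x = y then 1 else 0
  have hK₁inv : ∀ (g : G) x y, K₁ (g • x) (g • y) = K₁ x y := orbKer_cast_smul a₀ b₁
  have hK₂inv : ∀ (g : G) x y, K₂ (g • x) (g • y) = K₂ x y := orbKer_cast_smul a₀ b₂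
  have hδinv : ∀ (g : G) x y, δ (g • x) (g • y) = δ x y := by
    intro g x y
    simp only [δ, smul_left_cancel_iff]
  have t1 : K₁ a₀ a₀ = 0 := by
    simp only [K₁, N₁]
    rw [orbKer_self_of_not_mem ha₁]
    simp
  have t2 : K₁ a₀ b₁ = 1 := by
    simp only [K₁, N₁]
    rw [orbKer_self_of_mem (mem_orbit_self _)]
    simp
  have t3 : K₁ a₀ b₂ = 0 := by
    simp only [K₁, N₁]
    rw [orbKer_self_of_not_mem hsep₁]
    simp
  have s1 : K₂ a₀ a₀ = 0 := by
    simp only [K₂, N₂]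
    rw [orbKer_self_of_not_mem ha₂]
    simp
  have s2 : K₂ a₀ b₁ = 0 := by
    simp only [K₂, N₂]
    rw [orbKer_self_of_not_mem hsep₂]
    simp
  have s3 : K₂ a₀ b₂ = 1 := by
    simp only [K₂, N₂]
    rw [orbKer_self_of_mem (mem_orbit_self _)]
    simp
  have d1 : δ a₀ a₀ = 1 := by simp [δ]
  have d2 : δ a₀ b₁ = 0 := by simp [δ, hb₁.symm]
  have d3 : δ a₀ b₂ = 0 := by simp [δ, hb₂.symm]
  have hcase : ∀ x y : Ω, ∃ (g : G) (c : Ω), (c = a₀ ∨ c = b₁ ∨ c = b₂) ∧ g • a₀ = x ∧ g • c = y := by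
    intro x y
    obtain ⟨g, rfl⟩ := exists_smul_eq G a₀ x
    rcases hcover (g⁻¹ • y) with h | ⟨⟨h, hh⟩, h2⟩ | ⟨⟨h, hh⟩, h2⟩
    · exact ⟨g, a₀, Or.inl rfl, rfl, by rw [← h, smul_inv_smul]⟩
    · refine ⟨g * h, b₁, Or.inr (Or.inl rfl), ?_, ?_⟩
      · rw [mul_smul]
        congr 1
      · rw [mul_smul]
        have h3 : h • b₁ = g⁻¹ • y := h2
        rw [h3, smul_inv_smul]
    · refine ⟨g * h, b₂, Or.inr (Or.inr rfl), ?_, ?_⟩
      · rw [mul_smul]
        congr 1
      · rw [mul_smul]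
        have h3 : h • b₂ = g⁻¹ • y := h2
        rw [h3, smul_inv_smul]
  have hdecomp : ∀ M : Ω → Ω → ℂ, (∀ (g : G) x y, M (g • x) (g • y) = M x y) → ∀ x y,
      M x y = M a₀ a₀ * δ x y + M a₀ b₁ * K₁ x y + M a₀ b₂ * K₂ x y := by
    intro M hM x y
    obtain ⟨g, c, hc, rfl, rfl⟩ := hcase x y
    rw [hM, hδinv, hK₁inv, hK₂inv]
    rcases hc with rfl | rfl | rfl
    · rw [d1, t1, s1]; ring
    · rw [d2, t2, s2]; ring
    · rw [d3, t3, s3]; ring
  have hJ : ∀ x y, δ x y + K₁ x y + K₂ x y = 1 := by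
    intro x y
    have := hdecomp (fun _ _ => 1) (fun _ _ _ => rfl) x y
    simp only [one_mul] at this
    exact this.symm
  have hsym : ∀ x y, K₁ x y = K₁ y x := by
    intro x y
    obtain ⟨g, h1, h2⟩ := hswap x y
    have := hK₁inv g x y
    rw [h1, h2] at this
    exact this.symm
  have hidem : ∀ x y, K₁ x y * K₁ x y = K₁ x y := by
    intro x y
    simp only [K₁, N₁, orbKer]
    split_ifs <;> simp
  have hsum₀ : ∑ y, K₁ a₀ y = k := sum_orbKer a₀ b₁
  have hrow : ∀ x, ∑ y, K₁ x y = k := by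
    intro x
    obtain ⟨g, rfl⟩ := exists_smul_eq G a₀ x
    rw [← hsum₀]
    refine Fintype.sum_equiv (MulAction.toPerm g⁻¹) _ _ fun y => ?_
    have := hK₁inv g a₀ (g⁻¹ • y)
    rw [smul_inv_smul] at this
    exact this
  -- the square
  let M : Ω → Ω → ℂ := fun x y => ∑ z, K₁ x z * K₁ z y
  have hMinv : ∀ (g : G) x y, M (g • x) (g • y) = M x y := by
    intro g x y
    simp only [M]
    refine Fintype.sum_equiv (MulAction.toPerm g⁻¹) _ _ fun z => ?_
    have e1 := hK₁inv g x (g⁻¹ • z)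
    have e2 := hK₁inv g (g⁻¹ • z) y
    rw [smul_inv_smul] at e1 e2
    rw [e1, e2]
    rfl
  have hMdiag : ∀ x, M x x = k := by
    intro x
    simp only [M]
    rw [← hrow x]
    refine Finset.sum_congr rfl fun z _ => ?_
    rw [hsym z x, hidem]
  let lam : ℤ := ∑ z, N₁ a₀ z * N₁ z b₁
  let mu : ℤ := ∑ z, N₁ a₀ z * N₁ z b₂
  have hlam : M a₀ b₁ = lam := by
    simp only [M, K₁, lam]
    push_cast
    rfl
  have hmu : M a₀ b₂ = mu := by
    simp only [M, K₁, mu]
    push_cast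
    rfl
  have hMdec : ∀ x y, M x y = k * δ x y + lam * K₁ x y + mu * K₂ x y := by
    intro x y
    have := hdecomp M hMinv x y
    rwa [hMdiag, hlam, hmu] at this
  have hAc := kerOp_comm (M := K₁) hK₁inv
  have hMc := kerOp_comm (M := M) hMinv
  have hAA : kerOp K₁ ∘ₗ kerOp K₁ = kerOp M := kerOp_comp K₁ K₁
  -- the theta functions
  set θ₁ := theta (permRep ℂ G Ω) (kerOp K₁) with hθ₁
  set θ₂ := theta (permRep ℂ G Ω) (kerOp K₂) with hθ₂
  set θM := theta (permRep ℂ G Ω) (kerOp M) with hθM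
  have hθδ : theta (permRep ℂ G Ω) (kerOp δ) = π := by
    funext g
    rw [theta_kerOp]
    simp only [δ, hπdef]
    rw [Finset.sum_boole, Nat.card_eq_fintype_card, Fintype.card_subtype]
    congr 2
    ext x
    simp only [Finset.mem_filter, Finset.mem_univ, true_and, mem_fixedBy]
    exact eq_comm
  have hθdec : θM = (k : ℂ) • π + (lam : ℂ) • θ₁ + (mu : ℂ) • θ₂ := by
    funext g
    rw [hθM, theta_kerOp]
    simp only [Pi.add_apply, Pi.smul_apply, smul_eq_mul, hθ₁, hθ₂, theta_kerOp]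
    rw [← hθδ, theta_kerOp, Finset.mul_sum, Finset.mul_sum, Finset.mul_sum, ← Finset.sum_add_distrib,
      ← Finset.sum_add_distrib]
    exact Finset.sum_congr rfl fun x _ => hMdec x _
  have hθJ : π + θ₁ + θ₂ = fun _ => (Fintype.card Ω : ℂ) := by
    funext g
    simp only [Pi.add_apply, hθ₁, hθ₂, theta_kerOp]
    rw [← hθδ, theta_kerOp, ← Finset.sum_add_distrib, ← Finset.sum_add_distrib]
    simp only [hJ]
    simp
  have hQ : ∀ ψ : G → ℂ, IsIrrCharacter G ψ → ψ ≠ (fun _ => 1) → classInner π ψ = 1 →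
      classInner θ₁ ψ ^ 2 = k + lam * classInner θ₁ ψ + mu * (-1 - classInner θ₁ ψ) := by
    intro ψ hψ hne h1
    have h2 := classInner_theta_comp (A := kerOp K₁) (B := kerOp K₁) hAc hAc hψ h1
    rw [hAA] at h2
    have h3 : classInner θM ψ = classInner θ₁ ψ ^ 2 := by
      rw [pow_two]
      exact h2
    rw [← h3, hθdec, classInner_add_left, classInner_add_left, classInner_smul_left,
      classInner_smul_left, classInner_smul_left, h1]
    have h4 : classInner θ₂ ψ = - 1 - classInner θ₁ ψ := by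
      have h5 : classInner (π + θ₁ + θ₂) ψ = 0 := by
        rw [hθJ]
        have h6 : (fun _ : G => (Fintype.card Ω : ℂ)) = (Fintype.card Ω : ℂ) • (fun _ : G => (1 : ℂ)) := by
          funext g
          simp
        rw [h6, classInner_smul_left, classInner_irr hone hψ, if_neg (Ne.symm hne), mul_zero]
      rw [classInner_add_left, classInner_add_left, h1] at h5
      linear_combination h5
    rw [h4]
    ring
  -- the trace formula
  let χ₀' : IrrCharacter G := ⟨fun _ => 1, hone⟩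
  let χ₁' : IrrCharacter G := ⟨χ₁, h₁⟩
  let χ₂' : IrrCharacter G := ⟨χ₂, h₂⟩
  have hne₀₁ : χ₀' ≠ χ₁' := fun h => hne01 (congrArg Subtype.val h).symm
  have hne₀₂ : χ₀' ≠ χ₂' := fun h => hne02 (congrArg Subtype.val h).symm
  have hne₁₂ : χ₁' ≠ χ₂' := fun h => hne12 (congrArg Subtype.val h)
  have htr : ∀ T : Ω → Ω → ℂ, (∀ (g : G) x y, T (g • x) (g • y) = T x y) →
      ∑ x, T x x = classInner (theta (permRep ℂ G Ω) (kerOp T)) (fun _ => 1) +
        classInner (theta (permRep ℂ G Ω) (kerOp T)) χ₁ * ((m : ℂ) - 1) +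
        classInner (theta (permRep ℂ G Ω) (kerOp T)) χ₂ * (m : ℂ) := by
    intro T hT
    have h1 := trace_eq_sum_irr (permRep ℂ G Ω) (kerOp T) (kerOp_comm hT)
    rw [trace_kerOp] at h1
    rw [h1]
    have h2 : ∑ χ : IrrCharacter G, classInner (theta (permRep ℂ G Ω) (kerOp T)) (χ : G → ℂ) * (χ : G → ℂ) 1 =
        ∑ χ ∈ ({χ₀', χ₁', χ₂'} : Finset (IrrCharacter G)),
          classInner (theta (permRep ℂ G Ω) (kerOp T)) (χ : G → ℂ) * (χ : G → ℂ) 1 := by
      symm
      apply Finset.sum_subset (Finset.subset_univ _)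
      intro ψ _ hψ
      have hψ0 : (ψ : G → ℂ) ≠ fun _ => 1 := fun h => hψ (by
        simp only [Finset.mem_insert, Finset.mem_singleton]
        exact Or.inl (Subtype.ext h))
      have hψ1 : (ψ : G → ℂ) ≠ χ₁ := fun h => hψ (by
        simp only [Finset.mem_insert, Finset.mem_singleton]
        exact Or.inr (Or.inl (Subtype.ext h)))
      have hψ2 : (ψ : G → ℂ) ≠ χ₂ := fun h => hψ (by
        simp only [Finset.mem_insert, Finset.mem_singleton]
        exact Or.inr (Or.inr (Subtype.ext h)))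
      rw [classInner_theta_eq_zero_of_not_constituent (kerOp_comm hT) ψ.2 (hπψ _ ψ.2 hψ0 hψ1 hψ2),
        zero_mul]
    rw [h2, Finset.sum_insert (by simp [hne₀₁, hne₀₂]), Finset.sum_pair hne₁₂]
    simp only [χ₀', χ₁', χ₂', hd₁, hd₂, mul_one]
    ring
  have hθ₁one : classInner θ₁ (fun _ => 1) = k := by
    rw [hθ₁, classInner_theta_one hK₁inv a₀]
    exact hsum₀
  have E1 := htr K₁ hK₁inv
  have htr₁ : ∑ x, K₁ x x = 0 := trace_orbKer hb₁
  rw [htr₁, ← hθ₁, hθ₁one] at E1
  have E2 := htr M hMinv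
  have hθMone : classInner θM (fun _ => 1) = (k : ℂ) ^ 2 := by
    have h2 := classInner_theta_comp (A := kerOp K₁) (B := kerOp K₁) hAc hAc hone hπ1
    rw [hAA] at h2
    change classInner θM _ = classInner θ₁ _ * classInner θ₁ _ at h2
    rw [h2, hθ₁one, pow_two]
  have htrM : ∑ x, M x x = 2 * m * k := by
    simp only [hMdiag]
    rw [Finset.sum_const, Finset.card_univ, hm]
    simp
  have hMχ₁ : classInner θM χ₁ = classInner θ₁ χ₁ ^ 2 := by
    have h2 := classInner_theta_comp (A := kerOp K₁) (B := kerOp K₁) hAc hAc h₁ hπχ₁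
    rw [hAA] at h2
    rw [pow_two]
    exact h2
  have hMχ₂ : classInner θM χ₂ = classInner θ₁ χ₂ ^ 2 := by
    have h2 := classInner_theta_comp (A := kerOp K₁) (B := kerOp K₁) hAc hAc h₂ hπχ₂
    rw [hAA] at h2
    rw [pow_two]
    exact h2
  rw [htrM, ← hθM, hθMone, hMχ₁, hMχ₂] at E2
  have Qs := hQ χ₁ h₁ hne01 hπχ₁
  have Qt := hQ χ₂ h₂ hne02 hπχ₂
  have hres := Cfsg.Agent.Lib.Char.WielandtArith.wielandt_arith (m := m) (k := k) (l := l) hm2 hkl
    hkpos hlpos (s := classInner θ₁ χ₁) (t := classInner θ₁ χ₂) (lam := lam) (mu := mu)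
    (by linear_combination -E1) (by linear_combination -E2) Qs Qt
  -- singletons are impossible
  have hsing : ∀ b : Ω, b ≠ a₀ → Nat.card (orbit H b) ≠ 1 := by
    intro b hb h1
    have hfix := fun x h hh => stabilizer_fixes_of_singleton (G := G) hb h1 x h hh
    have hone' : ∀ c : Ω, Nat.card (orbit H c) = 1 := by
      intro c
      have : orbit H c = {c} := by
        ext x
        rw [mem_orbit_iff, Set.mem_singleton_iff]
        constructor
        · rintro ⟨⟨h, hh⟩, rfl⟩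
          exact hfix c h hh
        · rintro rfl
          exact ⟨1, one_smul _ _⟩
      rw [this]
      simp
    have h3 : k = 1 := hone' b₁
    have h4 : l = 1 := hone' b₂
    omega
  have hfinal : ∀ b : Ω, b ≠ a₀ → Nat.card (orbit H b) = k ∨ Nat.card (orbit H b) = l := by
    intro b hb
    rcases hcover b with h | h | h
    · exact absurd h hb
    · left
      rw [orbit_eq_iff.mpr h]
    · right
      rw [orbit_eq_iff.mpr h]
  rcases hres with h | h | ⟨a, ha, hma, hkl'⟩
  · exact absurd h (hsing b₁ hb₁)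
  · exact absurd h (hsing b₂ hb₂)
  · refine ⟨a, ha, hma, fun b hb => ?_⟩
    rcases hkl' with ⟨h1, h2⟩ | ⟨h1, h2⟩
    · rcases hfinal b hb with h3 | h3
      · left; rw [h3, h1]
      · right; rw [h3, h2]
    · rcases hfinal b hb with h3 | h3
      · right; rw [h3, h1]
      · left; rw [h3, h2]

end Cfsg.Agent.Lib.Char.OrbitalWielandt
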