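import Cfsg.Agent.Lib.Char.AlgSpan
import Cfsg.Agent.Lib.Char.PSmall
import Cfsg.Agent.Lib.Char.Zeros
import Cfsg.Agent.Lib.Char.Ito
import Cfsg.Agent.Lib.KGV.AbStab
import Cfsg.Agent.Lib.OddChar.GaloisConj
import Cfsg.Agent.Lib.Char.ZeroBound
import Mathlib

/-!
# The counting argument for the real vector criterion
-/

set_option autoImplicit false
set_option linter.style.haveILetI false
set_option linter.unusedSectionVars false

namespace Cfsg.Agent.Lib.Char.RVCount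

open Cfsg Module
open Cfsg.Agent.Lib.Char.Basic Cfsg.Agent.Lib.Char.Ortho Cfsg.Agent.Lib.Char.Complete
open Cfsg.Agent.Lib.Char.AlgSpan Cfsg.Agent.Lib.Char.PSmall Cfsg.Agent.Lib.Char.Galois
open Cfsg.Agent.Lib.OddChar.GaloisConj
open scoped ComplexConjugate

universe u v

section Algebra

theorem isIntegral_intCast (c : ℤ) : IsIntegral ℤ (c : ℂ) := by
  exact_mod_cast (isIntegral_algebraMap (R := ℤ) (A := ℂ) (x := c))

/-- Bezout for integrality. -/
theorem isIntegral_of_coprime {c n : ℤ} (hc : IsCoprime c n) {x : ℂ} (h1 : IsIntegral ℤ ((c : ℂ) * x))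
    (h2 : IsIntegral ℤ ((n : ℂ) * x)) : IsIntegral ℤ x := by
  obtain ⟨a, b, hab⟩ := hc
  have h3 : x = (a : ℂ) * ((c : ℂ) * x) + (b : ℂ) * ((n : ℂ) * x) := by
    have : ((a * c + b * n : ℤ) : ℂ) = 1 := by rw [hab]; simp
    push_cast at this
    linear_combination -x * this
  rw [h3]
  exact ((isIntegral_intCast a).mul h1).add ((isIntegral_intCast b).mul h2)

/-- The polynomial trick: inverting a function with finitely many values prime to `n`. -/
theorem exists_poly (S : Finset ℕ) (n : ℕ) (hS : ∀ s ∈ S, Nat.Coprime s n) :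
    ∃ (R : Polynomial ℤ) (c : ℤ), IsCoprime c (n : ℤ) ∧ ∀ s ∈ S, R.eval (s : ℤ) * (s : ℤ) = c := by
  classical
  let P : Polynomial ℤ := ∏ s ∈ S, (Polynomial.X - Polynomial.C (s : ℤ))
  refine ⟨P.divX, -P.coeff 0, ?_, ?_⟩
  · have h0 : P.coeff 0 = ∏ s ∈ S, (-(s : ℤ)) := by
      simp only [P, Polynomial.coeff_zero_eq_eval_zero, Polynomial.eval_prod]
      simp
    rw [IsCoprime.neg_left_iff, h0]
    refine IsCoprime.prod_left fun s hs => ?_
    rw [IsCoprime.neg_left_iff]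
    exact Nat.isCoprime_iff_coprime.mpr (hS s hs)
  · intro s hs
    have h1 : P.eval (s : ℤ) = 0 := by
      simp only [P, Polynomial.eval_prod]
      exact Finset.prod_eq_zero hs (by simp)
    have h2 := Polynomial.divX_mul_X_add P
    have h3 := congrArg (Polynomial.eval (s : ℤ)) h2
    simp only [Polynomial.eval_add, Polynomial.eval_mul, Polynomial.eval_X, Polynomial.eval_C, h1] at h3
    linarith

/-- Polynomials with integer coefficients in a character. -/
theorem inAlgSpan_poly {G : Type*} [Group G] (R : Polynomial ℤ) (π : G → ℕ)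
    (hπ : IsCharacter G (fun g => (π g : ℂ))) :
    InAlgSpan (fun g => ((R.eval (π g : ℤ) : ℤ) : ℂ)) := by
  have h1 : ∀ g, ((R.eval (π g : ℤ) : ℤ) : ℂ) =
      ∑ i ∈ Finset.range (R.natDegree + 1), (R.coeff i : ℂ) * (π g : ℂ) ^ i := by
    intro g
    rw [Polynomial.eval_eq_sum_range]
    push_cast
    rfl
  refine InAlgSpan.congr ?_ h1
  refine InAlgSpan.sum _ _ fun i _ => InAlgSpan.smul _ (isIntegral_intCast _) _ ?_
  exact (InAlgSpan.char _ hπ).pow i

end Algebra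

section Galois

theorem conj_eq_inv_of_pow {z : ℂ} {m : ℕ} (hm : m ≠ 0) (hz : z ^ m = 1) : conj z = z⁻¹ := by
  have h1 : ‖z‖ = 1 := Complex.norm_eq_one_of_pow_eq_one hz hm
  have h2 : z * conj z = 1 := by
    rw [Complex.mul_conj, Complex.normSq_eq_norm_sq, h1]
    simp
  exact eq_inv_of_mul_eq_one_right h2

/-- Conjugation and field automorphisms commute on cyclotomic fields. -/
theorem conj_comm (f : ℂ ≃+* ℂ) {N : ℕ} {y : ℂ} (hy : y ∈ Kn N) : f (conj y) = conj (f y) := by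
  refine IntermediateField.adjoin_induction ℚ (p := fun x _ => f (conj x) = conj (f x)) ?_ ?_ ?_ ?_ ?_ hy
  · rintro x ⟨m, -, hm, hx⟩
    have h1 : f x ^ m = 1 := by rw [← map_pow, hx, map_one]
    rw [conj_eq_inv_of_pow hm hx, conj_eq_inv_of_pow hm h1, map_inv₀]
  · intro x
    simp
  · intro x y _ _ h1 h2
    rw [map_add, map_add, h1, h2, map_add, map_add]
  · intro x _ h1
    rw [map_inv₀, map_inv₀, h1, map_inv₀, map_inv₀]
  · intro x y _ _ h1 h2
    rw [map_mul, map_mul, h1, h2, map_mul, map_mul]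

/-- An embedding of a cyclotomic field agrees with a field automorphism of `ℂ` with the same
action on roots of unity. -/
theorem algHom_eq (N : ℕ) (σ : Kn N →ₐ[ℚ] ℂ) (k : ℕ) (hσ : ∀ z : Kn N, z ^ N = 1 → σ z = (z : ℂ) ^ k)
    (f : ℂ ≃+* ℂ) (hf : ∀ z : ℂ, z ^ N = 1 → f z = z ^ k) (y : Kn N) : σ y = f y := by
  obtain ⟨y, hy⟩ := y
  change σ ⟨y, hy⟩ = f y
  refine IntermediateField.adjoin_induction ℚ (p := fun z hz => σ ⟨z, hz⟩ = f z) ?_ ?_ ?_ ?_ ?_ hy
  · rintro x ⟨m, hm, hm0, hx⟩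
    rw [Set.mem_singleton_iff] at hm
    subst hm
    have h2 : (⟨x, IntermediateField.subset_adjoin _ _ ⟨m, rfl, hm0, hx⟩⟩ : Kn m) ^ m = 1 :=
      Subtype.ext (by simpa using hx)
    rw [hσ _ h2]
    exact (hf x hx).symm
  · intro q
    have h3 : (⟨algebraMap ℚ ℂ q, IntermediateField.algebraMap_mem _ q⟩ : Kn N) = ((q : ℚ) : Kn N) :=
      Subtype.ext (by simp)
    rw [h3, map_ratCast σ, eq_ratCast, map_ratCast]
  · intro a c ha hc h1 h2
    have h3 : (⟨a + c, add_mem ha hc⟩ : Kn N) = ⟨a, ha⟩ + ⟨c, hc⟩ := rfl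
    rw [h3, map_add, h1, h2, map_add]
  · intro a ha h1
    have h3 : (⟨a⁻¹, inv_mem ha⟩ : Kn N) = (⟨a, ha⟩ : Kn N)⁻¹ := rfl
    rw [h3, map_inv₀, h1, map_inv₀]
  · intro a c ha hc h1 h2
    have h3 : (⟨a * c, mul_mem ha hc⟩ : Kn N) = ⟨a, ha⟩ * ⟨c, hc⟩ := rfl
    rw [h3, map_mul, h1, h2, map_mul]

/-- The arithmetic-geometric inequality for a nonzero algebraic integer of a number field. -/
theorem card_le_sum_norm_sq {K : Type*} [Field K] [NumberField K] (x : K) (hx : IsIntegral ℤ x)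
    (hx0 : x ≠ 0) : (Fintype.card (K →ₐ[ℚ] ℂ) : ℝ) ≤ ∑ σ : K →ₐ[ℚ] ℂ, ‖σ x‖ ^ 2 := by
  have hQ := one_le_prod_norm x hx hx0
  have hpos : ∀ σ : K →ₐ[ℚ] ℂ, 0 < ‖σ x‖ := fun σ =>
    norm_pos_iff.mpr fun h => hx0 (σ.toRingHom.injective (by simpa using h))
  have hpos2 : ∀ σ : K →ₐ[ℚ] ℂ, 0 < ‖σ x‖ ^ 2 := fun σ => pow_pos (hpos σ) 2
  have hQ2 : 1 ≤ ∏ σ : K →ₐ[ℚ] ℂ, ‖σ x‖ ^ 2 := by
    rw [Finset.prod_pow]
    exact one_le_pow₀ hQ
  have hlog : 0 ≤ ∑ σ : K →ₐ[ℚ] ℂ, (‖σ x‖ ^ 2 - 1) := by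
    calc (0:ℝ) ≤ Real.log (∏ σ : K →ₐ[ℚ] ℂ, ‖σ x‖ ^ 2) := Real.log_nonneg hQ2
      _ = ∑ σ : K →ₐ[ℚ] ℂ, Real.log (‖σ x‖ ^ 2) :=
          Real.log_prod (fun σ _ => (hpos2 σ).ne')
      _ ≤ ∑ σ : K →ₐ[ℚ] ℂ, (‖σ x‖ ^ 2 - 1) :=
        Finset.sum_le_sum fun σ _ => Real.log_le_sub_one_of_pos (hpos2 σ)
  rw [Finset.sum_sub_distrib] at hlog
  simp only [Finset.sum_const, Finset.card_univ, nsmul_eq_mul, mul_one] at hlog
  linarith

/-- Norms of images of cyclotomic numbers with rational absolute value. -/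
theorem norm_map_sq (f : ℂ ≃+* ℂ) {N : ℕ} {y : ℂ} (hy : y ∈ Kn N) (r : ℚ) (hr : y * conj y = r) :
    ‖f y‖ ^ 2 = ‖y‖ ^ 2 := by
  have h1 : f y * conj (f y) = r := by
    rw [← conj_comm f hy, ← map_mul, hr, map_ratCast]
  rw [Complex.mul_conj, Complex.normSq_eq_norm_sq] at h1 hr
  have h2 : ((‖f y‖ ^ 2 : ℝ) : ℂ) = ((‖y‖ ^ 2 : ℝ) : ℂ) := by
    rw [h1, hr]
  exact_mod_cast h2

end Galois

theorem kn_mono {a c : ℕ} (hc : c ≠ 0) (hac : a ∣ c) : Kn a ≤ Kn c := by
  refine IntermediateField.adjoin.mono _ _ _ ?_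
  rintro x ⟨m, hm, hm0, hx⟩
  rw [Set.mem_singleton_iff] at hm
  subst hm
  refine ⟨c, rfl, hc, ?_⟩
  obtain ⟨d, rfl⟩ := hac
  rw [pow_mul, hx, one_pow]

section Sums

variable {H : Type*} [Group H] [Fintype H] [Fintype (IrrCharacter H)]

/-- Parseval. -/
theorem parseval {F : H → ℂ} (hF : IsClassFunction H F) :
    ∑ ξ : IrrCharacter H, ‖classInner F (ξ : H → ℂ)‖ ^ 2 =
      (Nat.card H : ℝ)⁻¹ * ∑ h, ‖F h‖ ^ 2 := by
  have h1 := classInner_eq_sum (φ := F) hF
  rw [classInner_def] at h1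
  have h2 : ((∑ ξ : IrrCharacter H, ‖classInner F (ξ : H → ℂ)‖ ^ 2 : ℝ) : ℂ) =
      (((Nat.card H : ℝ)⁻¹ * ∑ h, ‖F h‖ ^ 2 : ℝ) : ℂ) := by
    push_cast
    have h3 : ∀ z : ℂ, ((‖z‖ : ℂ)) ^ 2 = z * conj z := fun z => by
      rw [Complex.mul_conj, Complex.normSq_eq_norm_sq]
      push_cast
      rfl
    simp only [h3]
    exact h1.symm
  exact_mod_cast h2

theorem sum_centralizer :
    ∑ h : H, (Nat.card (Subgroup.centralizer ({h} : Set H)) : ℝ) =
      Nat.card (IrrCharacter H) * Nat.card H := by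
  have h1 : ∀ h : H, (Nat.card (Subgroup.centralizer ({h} : Set H)) : ℝ) =
      ∑ ξ : IrrCharacter H, ‖(ξ : H → ℂ) h‖ ^ 2 := fun h =>
    (Cfsg.Agent.Lib.KGV.AbStab.sum_norm_sq h).symm
  simp only [h1]
  rw [Finset.sum_comm]
  have h2 : ∀ ξ : IrrCharacter H, ∑ h : H, ‖(ξ : H → ℂ) h‖ ^ 2 = (Nat.card H : ℝ) := by
    intro ξ
    obtain ⟨n, ρ, hρ, hc⟩ := ξ.2
    rw [← hc]
    haveI := hρ
    exact Cfsg.Agent.Lib.Char.Zeros.sum_norm_sq_character ρ
  simp only [h2, Finset.sum_const, Finset.card_univ, nsmul_eq_mul]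
  rw [Nat.card_eq_fintype_card (α := IrrCharacter H)]

/-- Galois twists permute the irreducible characters. -/
theorem sum_irr_pow {k : ℕ} (hk : k.Coprime (Nat.card H)) (F : H → ℂ) :
    ∑ ξ : IrrCharacter H, ‖classInner F (fun h => (ξ : H → ℂ) (h ^ k))‖ ^ 2 =
      ∑ ξ : IrrCharacter H, ‖classInner F (ξ : H → ℂ)‖ ^ 2 := by
  let e : IrrCharacter H → IrrCharacter H := fun ξ => ⟨_, isIrrCharacter_pow hk ξ.2⟩
  have hinj : Function.Injective e := by
    intro a c hac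
    apply Subtype.ext
    funext x
    obtain ⟨y, rfl⟩ := (pow_bijective_of_coprime hk).surjective x
    exact congrFun (congrArg Subtype.val hac) y
  have hbij : Function.Bijective e := Finite.injective_iff_bijective.mp hinj
  exact hbij.sum_comp (fun ξ : IrrCharacter H => ‖classInner F (ξ : H → ℂ)‖ ^ 2)

/-- Field automorphisms and inner products. -/
theorem map_classInner (f : ℂ ≃+* ℂ) {N k : ℕ} (hN : N ≠ 0) (hf : ∀ z : ℂ, z ^ N = 1 → f z = z ^ k)
    (hHN : Nat.card H ∣ N) (F : H → ℂ) {ξ : H → ℂ} (hξ : IsCharacter H ξ) :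
    f (classInner F ξ) = classInner (fun h => f (F h)) (fun h => ξ (h ^ k)) := by
  rw [classInner_def, classInner_def, map_mul, map_inv₀, map_natCast, map_sum]
  congr 1
  refine Finset.sum_congr rfl fun h _ => ?_
  rw [map_mul]
  congr 1
  obtain ⟨n, ρ, rfl⟩ := hξ
  have hg : h ^ N = 1 := by
    obtain ⟨c, hc⟩ := hHN
    rw [hc, pow_mul, pow_card_eq_one', one_pow]
  rw [conj_comm f (character_mem_Kn ρ hN hg)]
  congr 1
  exact comp_character_eq (f := (f : ℂ →+* ℂ)) hf hHN ⟨n, ρ, rfl⟩ h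

end Sums

section Cent

variable {X : Type*} [Group X] [Finite X] (p : ℕ) [Fact p.Prime] (V : Subgroup X) [V.Normal]

/-- The centralizer of `v h`. -/
theorem card_centralizer_le (hVexp : ∀ v ∈ V, v ^ p = 1) (hidx : ¬ p ∣ V.index)
    (hcomm : ∀ x ∈ V, ∀ y ∈ V, x * y = y * x)
    (G : Subgroup X) (hGV : Subgroup.IsComplement' V G) (v : X) (hv : v ∈ V) {H : Subgroup X}
    (hH : ∀ x, x ∈ H ↔ x ∈ G ∧ x * v = v * x) (h₀ : H) :
    Nat.card (Subgroup.centralizer ({v * (h₀ : X)} : Set X)) ≤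
      Nat.card (V ⊓ Subgroup.centralizer ({(h₀ : X)} : Set X) : Subgroup X) *
        Nat.card (Subgroup.centralizer ({h₀} : Set H)) := by
  classical
  have hp : p.Prime := Fact.out
  set h : X := (h₀ : X) with hh
  have hG : h ∈ G := ((hH h).mp h₀.2).1
  have hcv : h * v = v * h := ((hH h).mp h₀.2).2
  have hord : ¬ p ∣ orderOf h := by
    intro hd
    apply hidx
    rw [hGV.symm.index_eq_card]
    have h1 : orderOf (⟨h, hG⟩ : G) = orderOf h := Subgroup.orderOf_mk h hG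
    have h2 : orderOf (⟨h, hG⟩ : G) ∣ Nat.card G := orderOf_dvd_natCard _
    rw [h1] at h2
    exact hd.trans h2
  have hdec : ∀ y : Subgroup.centralizer ({v * h} : Set X),
      ∃ q : (V ⊓ Subgroup.centralizer ({h} : Set X) : Subgroup X) ×
        Subgroup.centralizer ({h₀} : Set H), (y : X) = (q.1 : X) * ((q.2 : H) : X) := by
    rintro ⟨y, hy⟩
    rw [Subgroup.mem_centralizer_singleton_iff] at hy
    obtain ⟨⟨u, g⟩, hug⟩ := hGV.2 y
    have hug' : (u : X) * (g : X) = y := hug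
    subst hug'
    obtain ⟨u, hu⟩ := u
    obtain ⟨g, hg⟩ := g
    simp only at hy ⊢
    set h' := g * h * g⁻¹ with hh'
    have hh'G : h' ∈ G := G.mul_mem (G.mul_mem hg hG) (G.inv_mem hg)
    set w := g * v * g⁻¹ with hw
    have hwV : w ∈ V := Subgroup.Normal.conj_mem inferInstance v hv g
    have hu'V : h' * u⁻¹ * h'⁻¹ ∈ V := Subgroup.Normal.conj_mem inferInstance u⁻¹ (V.inv_mem hu) h'
    have ha1 : u * w * (h' * u⁻¹ * h'⁻¹) ∈ V := V.mul_mem (V.mul_mem hu hwV) hu'V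
    have heq : (u * w * (h' * u⁻¹ * h'⁻¹)) * h' = v * h := by
      have h1 : (u * g) * (v * h) * (u * g)⁻¹ = v * h := by
        rw [hy, mul_assoc, mul_inv_cancel, mul_one]
      rw [← h1, hh', hw]
      group
    have huniq := hGV.1 (a₁ := (⟨_, ha1⟩, ⟨h', hh'G⟩)) (a₂ := (⟨v, hv⟩, ⟨h, hG⟩)) heq
    have huniq' := Prod.ext_iff.mp huniq
    have e1 : u * w * (h' * u⁻¹ * h'⁻¹) = v := congrArg Subtype.val huniq'.1
    have e2 : h' = h := congrArg Subtype.val huniq'.2
    rw [e2] at e1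
    have hgh : g * h = h * g := by
      have : g * h * g⁻¹ = h := e2
      rw [mul_inv_eq_iff_eq_mul] at this
      exact this
    set t := u * (h * u⁻¹ * h⁻¹) with ht
    have hhu : h * u⁻¹ * h⁻¹ ∈ V := Subgroup.Normal.conj_mem inferInstance u⁻¹ (V.inv_mem hu) h
    have htV : t ∈ V := V.mul_mem hu hhu
    have e3 : w * t = v := by
      rw [← e1, ht, ← mul_assoc, hcomm w hwV u hu]
    have hhw : h * w = w * h := by
      rw [hw]
      calc h * (g * v * g⁻¹) = (h * g) * v * g⁻¹ := by group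
        _ = (g * h) * v * g⁻¹ := by rw [hgh]
        _ = g * (h * v) * g⁻¹ := by group
        _ = g * (v * h) * g⁻¹ := by rw [hcv]
        _ = g * v * (h * g⁻¹) := by group
        _ = g * v * (g⁻¹ * h) := by
          congr 1
          rw [eq_inv_mul_iff_mul_eq, ← mul_assoc, hgh, mul_assoc, mul_inv_cancel, mul_one]
        _ = g * v * g⁻¹ * h := by group
    have hht : h * t = t * h := by
      have e4 : t = w⁻¹ * v := by rw [← e3]; group
      rw [e4]
      have c1 : Commute h w := hhw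
      have c2 : Commute h v := hcv
      exact (c1.inv_right.mul_right c2).eq
    have ht1 := Cfsg.Agent.Lib.KGV.AbStab.comm_eq_one hp u h t ht hht (hVexp t htV) hord
    have e5 : w = v := by rw [← e3, ht1, mul_one]
    have hu1 : u * h = h * u := by
      have : u * (h * u⁻¹ * h⁻¹) = 1 := ht1
      have h2 : u * h * u⁻¹ * h⁻¹ = 1 := by rw [← this]; group
      have h3 := mul_inv_eq_one.mp h2
      exact mul_inv_eq_iff_eq_mul.mp h3
    have hgv : g * v = v * g := by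
      have : g * v * g⁻¹ = v := e5
      exact mul_inv_eq_iff_eq_mul.mp this
    have m1 : u ∈ V ⊓ Subgroup.centralizer ({h} : Set X) :=
      Subgroup.mem_inf.mpr ⟨hu, Subgroup.mem_centralizer_singleton_iff.mpr hu1⟩
    have m2 : g ∈ H := (hH g).mpr ⟨hg, hgv⟩
    have m3 : (⟨g, m2⟩ : H) ∈ Subgroup.centralizer ({h₀} : Set H) := by
      rw [Subgroup.mem_centralizer_singleton_iff]
      exact Subtype.ext hgh
    exact ⟨⟨⟨u, m1⟩, ⟨⟨g, m2⟩, m3⟩⟩, rfl⟩
  choose F hF using hdec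
  have hinj : Function.Injective F := by
    intro x y hxy
    apply Subtype.ext
    rw [hF x, hF y, hxy]
  have := Nat.card_le_card_of_injective F hinj
  rwa [Nat.card_prod] at this

/-- Centralizers of coprime powers. -/
theorem card_centralizer_pow_le {k : ℕ} (hk : k.Coprime (Nat.card X)) (g : X) :
    Nat.card (Subgroup.centralizer ({g ^ k} : Set X)) ≤ Nat.card (Subgroup.centralizer ({g} : Set X)) := by
  classical
  letI := Fintype.ofFinite X
  obtain ⟨m, hm⟩ := Cfsg.Agent.Lib.Char.ZeroBound.exists_pow_pow_eq g hk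
  refine Subgroup.card_le_of_le ?_
  intro x hx
  rw [Subgroup.mem_centralizer_singleton_iff] at hx ⊢
  have h1 : Commute x (g ^ k) := hx
  have h2 := h1.pow_right m
  rw [hm] at h2
  exact h2

end Cent

section Span

variable {X : Type u} [Group X]

theorem InAlgSpan.isClassFunction {f : X → ℂ} (hf : InAlgSpan f) : IsClassFunction X f := by
  induction hf with
  | char χ hχ => exact isClassFunction_of_isCharacter hχ
  | add f₁ f₂ _ _ h₁ h₂ =>
    intro g h
    simp only [h₁ g h, h₂ g h]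
  | smul a ha f₁ _ h₁ =>
    intro g h
    simp only [h₁ g h]

/-- The function `h ↦ χ (v h)` is in the span. -/
theorem inAlgSpan_mul_left [Finite X] {χ : X → ℂ} (hχ : IsCharacter X χ) (H : Subgroup X) (v : X)
    (hvc : ∀ h : H, (h : X) * v = v * h) : InAlgSpan (fun h : H => χ (v * h)) := by
  obtain ⟨n, ρ, rfl⟩ := hχ
  have h1 := inAlgSpan_trace (ρ.comp H.subtype : Representation ℂ H (Fin n → ℂ)) (ρ v)
    (fun h => by
      change ρ v * ρ h = ρ h * ρ v
      rw [← map_mul, ← map_mul, hvc])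
    (isIntegral_of_hasEigenvalue_of_pow_eq_one _ (n := orderOf v) (orderOf_pos _).ne' (by
      rw [← map_pow, pow_orderOf_eq_one, map_one]))
  refine h1.congr fun h => ?_
  change LinearMap.trace ℂ _ (ρ (v * h)) = LinearMap.trace ℂ _ (ρ v * ρ h)
  rw [map_mul]

end Span

section Main

variable {X : Type u} [Group X] [Finite X] (p : ℕ) [Fact p.Prime] (V : Subgroup X) [V.Normal]

/-- The main counting theorem. -/
theorem count (hVexp : ∀ v ∈ V, v ^ p = 1) (hidx : ¬ p ∣ V.index)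
    (hself : Subgroup.centralizer (V : Set X) = V) (G : Subgroup X)
    (hGV : Subgroup.IsComplement' V G) (v : X) (hv : v ∈ V) (H : Subgroup X)
    (hH : ∀ x, x ∈ H ↔ x ∈ G ∧ x * v = v * x) (lam : H → ℂ) (π : H → ℕ) (A : ℕ)
    (hone : lam 1 = 1) (hint : ∀ h, IsIntegral ℤ (lam h))
    (hsmall : ∀ h, h ≠ 1 → IsSmall p (lam h))
    (hπ : IsCharacter H (fun h => (π h : ℂ))) (hπpos : ∀ h, π h ≠ 0)
    (hπcop : ∀ h, Nat.Coprime (π h) (Nat.card H))
    (hspan : InAlgSpan (fun h => (π h : ℂ) * lam h))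
    (hnorm : ∀ h, ‖lam h‖ ^ 2 * (π h : ℝ) = A)
    (hbound : ∀ h : H, (A : ℝ) * Nat.card (V ⊓ Subgroup.centralizer ({(h : X)} : Set X) : Subgroup X) ≤
      π h * Nat.card V)
    (hcyc : ∃ N, N ≠ 0 ∧ ∀ h, lam h ∈ Kn N) :
    Nat.card (ConjClasses X) ≤ Nat.card V := by
  classical
  have hp : p.Prime := Fact.out
  letI : Fintype X := Fintype.ofFinite X
  letI : Fintype H := Fintype.ofFinite H
  haveI := finite_irrCharacter (G := X)
  haveI := finite_irrCharacter (G := H)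
  letI : Fintype (IrrCharacter X) := Fintype.ofFinite _
  letI : Fintype (IrrCharacter H) := Fintype.ofFinite _
  have hcommV : ∀ x ∈ V, ∀ y ∈ V, x * y = y * x := by
    intro x hx y hy
    have h1 : x ∈ Subgroup.centralizer (V : Set X) := by rw [hself]; exact hx
    rw [Subgroup.mem_centralizer_iff] at h1
    exact (h1 y hy).symm
  have hHG : ∀ x ∈ H, x ∈ G := fun x hx => ((hH x).mp hx).1
  have hvc : ∀ h : H, (h : X) * v = v * h := fun h => ((hH h).mp h.2).2
  have hHcop : ¬ p ∣ Nat.card H := by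
    intro hd
    apply hidx
    rw [hGV.symm.index_eq_card]
    exact hd.trans (Subgroup.card_dvd_of_le hHG)
  -- the function whose Fourier coefficients we study
  let F : (X → ℂ) → H → ℂ := fun χ h => χ (v * h) * lam h
  let nn : (X → ℂ) → (H → ℂ) → ℂ := fun χ ξ => classInner (F χ) ξ
  have hπclass : ∀ h t : H, π (t * h * t⁻¹) = π h := by
    intro h t
    have h1 := isClassFunction_of_isCharacter hπ h t
    exact_mod_cast h1
  have hlamclass : IsClassFunction H lam := by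
    intro h t
    have h1 := InAlgSpan.isClassFunction hspan h t
    simp only [hπclass] at h1
    exact mul_left_cancel₀ (Nat.cast_ne_zero.mpr (hπpos h)) h1
  have hFclass : ∀ χ : X → ℂ, IsCharacter X χ → IsClassFunction H (F χ) := by
    intro χ hχ h t
    simp only [F]
    rw [hlamclass h t]
    congr 1
    have h1 : v * ((t * h * t⁻¹ : H) : X) = (t : X) * (v * (h : X)) * (t : X)⁻¹ := by
      have h2 := hvc t
      push_cast
      calc v * ((t : X) * (h : X) * (t : X)⁻¹) = (v * (t : X)) * (h : X) * (t : X)⁻¹ := by group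
        _ = ((t : X) * v) * (h : X) * (t : X)⁻¹ := by rw [h2]
        _ = _ := by group
    rw [h1]
    exact isClassFunction_of_isCharacter hχ _ _
  have hχint : ∀ {χ : X → ℂ}, IsCharacter X χ → ∀ g, IsIntegral ℤ (χ g) := by
    rintro χ ⟨n, ρ, rfl⟩ g
    exact Cfsg.Agent.Lib.Char.Eigen.character_isIntegral ρ g
  have hξint : ∀ {ξ : H → ℂ}, IsCharacter H ξ → ∀ h, IsIntegral ℤ (conj (ξ h)) := by
    rintro ξ ⟨n, ρ, rfl⟩ h
    rw [← char_inv_eq_conj ⟨n, ρ, rfl⟩ h]
    exact Cfsg.Agent.Lib.Char.Eigen.character_isIntegral ρ h⁻¹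
  have hcard0 : (Nat.card H : ℂ) ≠ 0 := Nat.cast_ne_zero.mpr Nat.card_pos.ne'
  have hnnsum : ∀ χ ξ, (Nat.card H : ℂ) * nn χ ξ = ∑ h, F χ h * conj (ξ h) := by
    intro χ ξ
    simp only [nn]
    rw [classInner_def, ← mul_assoc, mul_inv_cancel₀ hcard0, one_mul]
  -- integrality
  have hnnint : ∀ χ ξ, IsCharacter X χ → IsCharacter H ξ → IsIntegral ℤ (nn χ ξ) := by
    intro χ ξ hχ hξ
    obtain ⟨R, c, hc, hR⟩ := exists_poly (Finset.univ.image π) (Nat.card H) (by
      intro s hs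
      obtain ⟨h, -, rfl⟩ := Finset.mem_image.mp hs
      exact hπcop h)
    have hRh : ∀ h, R.eval (π h : ℤ) * (π h : ℤ) = c := fun h =>
      hR _ (Finset.mem_image_of_mem _ (Finset.mem_univ h))
    have h1 : IsIntegral ℤ ((c : ℂ) * nn χ ξ) := by
      have h2 : InAlgSpan (fun h : H => ((R.eval (π h : ℤ) : ℤ) : ℂ) * (((π h : ℂ) * lam h) * χ (v * h))) :=
        (inAlgSpan_poly R π hπ).mul (hspan.mul (inAlgSpan_mul_left hχ H v hvc))
      have h3 := h2.isIntegral_classInner hξ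
      have h4 : (fun h : H => ((R.eval (π h : ℤ) : ℤ) : ℂ) * (((π h : ℂ) * lam h) * χ (v * h))) =
          (c : ℂ) • F χ := by
        funext h
        have h5 : (((R.eval (π h : ℤ) : ℤ) : ℂ)) * (π h : ℂ) = c := by
          rw [← hRh h]
          push_cast
          rfl
        simp only [Pi.smul_apply, smul_eq_mul, F]
        rw [← h5]
        ring
      rw [h4, classInner_smul_left] at h3
      exact h3
    have h2 : IsIntegral ℤ (((Nat.card H : ℤ) : ℂ) * nn χ ξ) := by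
      have h3 : ((Nat.card H : ℤ) : ℂ) = (Nat.card H : ℂ) := by push_cast; rfl
      rw [h3, hnnsum]
      refine IsIntegral.sum _ fun h _ => ?_
      exact ((hχint hχ _).mul (hint h)).mul (hξint hξ h)
    exact isIntegral_of_coprime hc h1 h2
  -- nonvanishing
  have hnn0 : ∀ (χ : IrrCharacter X) (ξ : IrrCharacter H), nn (χ : X → ℂ) (ξ : H → ℂ) ≠ 0 := by
    intro χ ξ h0
    have hχc := isCharacter_of_isIrrCharacter χ.2
    have hξc := isCharacter_of_isIrrCharacter ξ.2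
    obtain ⟨m, ρ, hρ, hc⟩ := χ.2
    obtain ⟨d, σ, hσ, hd⟩ := ξ.2
    haveI := hρ
    haveI := hσ
    have hsum := hnnsum (χ : X → ℂ) (ξ : H → ℂ)
    rw [h0, mul_zero, ← Finset.add_sum_erase Finset.univ _ (Finset.mem_univ (1 : H))] at hsum
    have hrest : IsSmall p (∑ h ∈ Finset.univ.erase (1 : H), F (χ : X → ℂ) h * conj ((ξ : H → ℂ) h)) := by
      refine isSmall_sum _ _ fun h hh => ?_
      have hne : h ≠ 1 := (Finset.mem_erase.mp hh).1
      exact ((hsmall h hne).mul_left (hχint hχc _)).mul_right (hξint hξc h)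
    have hdeg : (ξ : H → ℂ) 1 = d := by
      rw [← hd, Representation.char_one, Module.finrank_fin_fun]
    have hterm : F (χ : X → ℂ) 1 * conj ((ξ : H → ℂ) 1) = (χ : X → ℂ) v * d := by
      simp only [F, hone, hdeg, Subgroup.coe_one, mul_one, Complex.conj_natCast]
    rw [hterm] at hsum
    have h1 : IsSmall p ((χ : X → ℂ) v * d) := by
      have h2 : (χ : X → ℂ) v * d =
          (-1) * ∑ h ∈ Finset.univ.erase (1 : H), F (χ : X → ℂ) h * conj ((ξ : H → ℂ) h) := by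
        linear_combination (-1 : ℂ) * hsum
      rw [h2]
      exact hrest.mul_left (isIntegral_one.neg)
    have h3 : IsSmall p ((χ : X → ℂ) v - m) := by
      have h4 := isSmall_character_sub ρ hp (hVexp v hv)
      rwa [Module.finrank_fin_fun, hc] at h4
    have h5 : IsSmall p ((m * d : ℕ) : ℂ) := by
      have h6 : ((m * d : ℕ) : ℂ) = (χ : X → ℂ) v * d - ((χ : X → ℂ) v - m) * d := by
        push_cast
        ring
      rw [h6]
      refine h1.sub (h3.mul_right ?_)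
      exact_mod_cast (isIntegral_algebraMap (R := ℤ) (A := ℂ) (x := (d : ℤ)))
    rcases (Nat.Prime.dvd_mul hp).mp (dvd_of_isSmall_natCast hp h5) with h6 | h6
    · have h7 := Cfsg.Agent.Lib.Char.Ito.finrank_dvd_index_of_abelian_normal ρ V hcommV
      rw [Module.finrank_fin_fun] at h7
      exact hidx (h6.trans h7)
    · have h7 := Cfsg.Agent.Lib.Char.Central.finrank_dvd_card σ
      rw [Module.finrank_fin_fun] at h7
      exact hHcop (h6.trans h7)
  -- the cyclotomic field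
  obtain ⟨N₀, hN₀, hlamN⟩ := hcyc
  set N := N₀ * Nat.card X with hNdef
  have hN : N ≠ 0 := mul_ne_zero hN₀ Nat.card_pos.ne'
  haveI : NeZero N := ⟨hN⟩
  have hXN : Nat.card X ∣ N := dvd_mul_left _ _
  have hHN : Nat.card H ∣ N := (Subgroup.card_subgroup_dvd_card H).trans hXN
  have hXpow : ∀ g : X, g ^ N = 1 := by
    intro g
    obtain ⟨c, hc⟩ := hXN
    rw [hc, pow_mul, pow_card_eq_one', one_pow]
  have hHpow : ∀ g : H, g ^ N = 1 := by
    intro g
    obtain ⟨c, hc⟩ := hHN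
    rw [hc, pow_mul, pow_card_eq_one', one_pow]
  have hlamK : ∀ h, lam h ∈ Kn N := fun h => kn_mono hN (dvd_mul_right _ _) (hlamN h)
  have hnatK : ∀ k : ℕ, (k : ℂ) ∈ Kn N := fun k => by
    have h2 := (Kn N).algebraMap_mem (k : ℚ)
    rwa [map_natCast] at h2
  have hmem : ∀ χ ξ, IsCharacter X χ → IsCharacter H ξ → nn χ ξ ∈ Kn N := by
    rintro χ ξ ⟨n, ρ, rfl⟩ ⟨n', ρ', rfl⟩
    simp only [nn]
    rw [classInner_def]
    refine mul_mem (inv_mem (hnatK _)) (sum_mem fun h _ => ?_)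
    refine mul_mem (mul_mem (character_mem_Kn ρ hN (hXpow _)) (hlamK h)) ?_
    rw [← char_inv_eq_conj ⟨n', ρ', rfl⟩ h]
    exact character_mem_Kn ρ' hN (hHpow _)
  let x : IrrCharacter X → IrrCharacter H → Kn N := fun χ ξ =>
    ⟨nn (χ : X → ℂ) (ξ : H → ℂ), hmem _ _ (isCharacter_of_isIrrCharacter χ.2)
      (isCharacter_of_isIrrCharacter ξ.2)⟩
  have hx : ∀ χ ξ, ((x χ ξ : Kn N) : ℂ) = nn (χ : X → ℂ) (ξ : H → ℂ) := fun _ _ => rfl
  have hlow : ∀ χ ξ, (Fintype.card (Kn N →ₐ[ℚ] ℂ) : ℝ) ≤ ∑ σ : Kn N →ₐ[ℚ] ℂ, ‖σ (x χ ξ)‖ ^ 2 := by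
    intro χ ξ
    refine card_le_sum_norm_sq _ ?_ ?_
    · rw [← isIntegral_algebraMap_iff (algebraMap (Kn N) ℂ).injective]
      exact hnnint _ _ (isCharacter_of_isIrrCharacter χ.2) (isCharacter_of_isIrrCharacter ξ.2)
    · intro h0
      apply hnn0 χ ξ
      rw [← hx, h0]
      rfl
  -- the upper bound for each embedding
  have hup : ∀ σ : Kn N →ₐ[ℚ] ℂ, ∑ χ : IrrCharacter X, ∑ ξ : IrrCharacter H, ‖σ (x χ ξ)‖ ^ 2 ≤
      (Nat.card V : ℝ) * Nat.card (IrrCharacter H) := by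
    intro σ
    obtain ⟨k, hk, hkσ⟩ := exists_pow_of_algHom N σ
    obtain ⟨f, hf⟩ := exists_ringEquiv_pow N k hN hk
    have hσf : ∀ y, σ y = f y := algHom_eq N σ k hkσ f hf
    have hk1 : k.Coprime (Nat.card H) := hk.coprime_dvd_right hHN
    have hk2 : k.Coprime (Nat.card X) := hk.coprime_dvd_right hXN
    have hlamf : ∀ h, ‖f (lam h)‖ ^ 2 = ‖lam h‖ ^ 2 := by
      intro h
      refine norm_map_sq f (hlamK h) ((A : ℚ) / (π h : ℚ)) ?_
      rw [Complex.mul_conj, Complex.normSq_eq_norm_sq]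
      have h1 : (π h : ℝ) ≠ 0 := Nat.cast_ne_zero.mpr (hπpos h)
      have h2 : ‖lam h‖ ^ 2 = (A : ℝ) / π h := by
        rw [eq_div_iff h1]
        exact hnorm h
      rw [h2]
      push_cast
      rfl
    have hstep : ∀ χ : IrrCharacter X, ∑ ξ : IrrCharacter H, ‖σ (x χ ξ)‖ ^ 2 =
        (Nat.card H : ℝ)⁻¹ * ∑ h : H, ‖(χ : X → ℂ) ((v * h) ^ k)‖ ^ 2 * ‖lam h‖ ^ 2 := by
      intro χ
      have hχc := isCharacter_of_isIrrCharacter χ.2
      have hF' : IsClassFunction H (fun h => f (F (χ : X → ℂ) h)) := by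
        intro h t
        simp only [hFclass _ hχc h t]
      have h1 : ∀ h : H, ‖(χ : X → ℂ) ((v * h) ^ k)‖ ^ 2 * ‖lam h‖ ^ 2 =
          ‖f (F (χ : X → ℂ) h)‖ ^ 2 := by
        intro h
        simp only [F]
        rw [map_mul, norm_mul, mul_pow, hlamf h]
        congr 2
        rw [← comp_character_eq (f := (f : ℂ →+* ℂ)) hf hXN hχc (v * h)]
        rfl
      simp only [h1]
      rw [← parseval hF', ← sum_irr_pow hk1]
      refine Finset.sum_congr rfl fun ξ _ => ?_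
      have hξc := isCharacter_of_isIrrCharacter ξ.2
      rw [hσf, hx]
      simp only [nn]
      rw [map_classInner f hN hf hHN _ hξc]
    have hterm : ∀ h : H, ‖lam h‖ ^ 2 * (Nat.card (Subgroup.centralizer ({v * (h : X)} : Set X)) : ℝ) ≤
        (Nat.card V : ℝ) * Nat.card (Subgroup.centralizer ({h} : Set H)) := by
      intro h
      have h1 := card_centralizer_le p V hVexp hidx hcommV G hGV v hv hH h
      have h1' : (Nat.card (Subgroup.centralizer ({v * (h : X)} : Set X)) : ℝ) ≤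
          (Nat.card (V ⊓ Subgroup.centralizer ({(h : X)} : Set X) : Subgroup X) : ℝ) *
            Nat.card (Subgroup.centralizer ({h} : Set H)) := by
        exact_mod_cast h1
      have hπ0 : (0 : ℝ) < π h := by
        exact_mod_cast Nat.pos_of_ne_zero (hπpos h)
      have hl : ‖lam h‖ ^ 2 = (A : ℝ) / π h := by
        rw [eq_div_iff hπ0.ne']
        exact hnorm h
      have hb := hbound h
      have hlnn : 0 ≤ ‖lam h‖ ^ 2 := by positivity
      calc ‖lam h‖ ^ 2 * (Nat.card (Subgroup.centralizer ({v * (h : X)} : Set X)) : ℝ)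
          ≤ ‖lam h‖ ^ 2 * ((Nat.card (V ⊓ Subgroup.centralizer ({(h : X)} : Set X) : Subgroup X) : ℝ) *
            Nat.card (Subgroup.centralizer ({h} : Set H))) :=
            mul_le_mul_of_nonneg_left h1' hlnn
        _ = (‖lam h‖ ^ 2 * (Nat.card (V ⊓ Subgroup.centralizer ({(h : X)} : Set X) : Subgroup X) : ℝ)) *
            Nat.card (Subgroup.centralizer ({h} : Set H)) := by ring
        _ ≤ (Nat.card V : ℝ) * Nat.card (Subgroup.centralizer ({h} : Set H)) := by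
            refine mul_le_mul_of_nonneg_right ?_ (by positivity)
            rw [hl, div_mul_eq_mul_div, div_le_iff₀ hπ0]
            linarith
    simp only [hstep]
    rw [← Finset.mul_sum]
    have hswap : ∑ χ : IrrCharacter X, ∑ h : H, ‖(χ : X → ℂ) ((v * h) ^ k)‖ ^ 2 * ‖lam h‖ ^ 2 =
        ∑ h : H, ‖lam h‖ ^ 2 * (Nat.card (Subgroup.centralizer ({(v * (h : X)) ^ k} : Set X)) : ℝ) := by
      rw [Finset.sum_comm]
      refine Finset.sum_congr rfl fun h _ => ?_
      rw [← Cfsg.Agent.Lib.KGV.AbStab.sum_norm_sq ((v * (h : X)) ^ k), Finset.mul_sum]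
      refine Finset.sum_congr rfl fun χ _ => ?_
      ring
    rw [hswap]
    have hle : ∑ h : H, ‖lam h‖ ^ 2 * (Nat.card (Subgroup.centralizer ({(v * (h : X)) ^ k} : Set X)) : ℝ) ≤
        ∑ h : H, (Nat.card V : ℝ) * Nat.card (Subgroup.centralizer ({h} : Set H)) := by
      refine Finset.sum_le_sum fun h _ => le_trans ?_ (hterm h)
      refine mul_le_mul_of_nonneg_left ?_ (by positivity)
      exact_mod_cast card_centralizer_pow_le hk2 (v * (h : X))
    rw [← Finset.mul_sum, sum_centralizer] at hle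
    have hHpos : (0 : ℝ) < Nat.card H := by exact_mod_cast Nat.card_pos
    calc (Nat.card H : ℝ)⁻¹ * ∑ h : H, ‖lam h‖ ^ 2 *
          (Nat.card (Subgroup.centralizer ({(v * (h : X)) ^ k} : Set X)) : ℝ)
        ≤ (Nat.card H : ℝ)⁻¹ * ((Nat.card V : ℝ) * (Nat.card (IrrCharacter H) * Nat.card H)) :=
          mul_le_mul_of_nonneg_left hle (by positivity)
      _ = (Nat.card V : ℝ) * Nat.card (IrrCharacter H) := by
          field_simp
  -- conclusion
  have hEmb : 0 < Fintype.card (Kn N →ₐ[ℚ] ℂ) := Fintype.card_pos_iff.mpr ⟨(Kn N).val⟩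
  have hEmb' : (0 : ℝ) < Fintype.card (Kn N →ₐ[ℚ] ℂ) := by exact_mod_cast hEmb
  have hkH : (0 : ℝ) < Nat.card (IrrCharacter H) := by
    rw [card_irr_eq_card_conjClasses]
    exact_mod_cast Nat.card_pos
  have hlower : (Fintype.card (Kn N →ₐ[ℚ] ℂ) : ℝ) * (Nat.card (IrrCharacter X) * Nat.card (IrrCharacter H)) ≤
      ∑ σ : Kn N →ₐ[ℚ] ℂ, ∑ χ : IrrCharacter X, ∑ ξ : IrrCharacter H, ‖σ (x χ ξ)‖ ^ 2 := by
    have h1 : ∑ χ : IrrCharacter X, ∑ ξ : IrrCharacter H,
        (Fintype.card (Kn N →ₐ[ℚ] ℂ) : ℝ) ≤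
        ∑ χ : IrrCharacter X, ∑ ξ : IrrCharacter H, ∑ σ : Kn N →ₐ[ℚ] ℂ, ‖σ (x χ ξ)‖ ^ 2 :=
      Finset.sum_le_sum fun χ _ => Finset.sum_le_sum fun ξ _ => hlow χ ξ
    simp only [Finset.sum_const, Finset.card_univ, nsmul_eq_mul] at h1
    calc _ = (Fintype.card (IrrCharacter X) : ℝ) *
          ((Fintype.card (IrrCharacter H) : ℝ) * (Fintype.card (Kn N →ₐ[ℚ] ℂ) : ℝ)) := by
          rw [Nat.card_eq_fintype_card, Nat.card_eq_fintype_card]
          ring
      _ ≤ _ := h1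
      _ = _ := by
          calc ∑ χ : IrrCharacter X, ∑ ξ : IrrCharacter H, ∑ σ : Kn N →ₐ[ℚ] ℂ, ‖σ (x χ ξ)‖ ^ 2
              = ∑ χ : IrrCharacter X, ∑ σ : Kn N →ₐ[ℚ] ℂ, ∑ ξ : IrrCharacter H, ‖σ (x χ ξ)‖ ^ 2 :=
                Finset.sum_congr rfl fun χ _ => Finset.sum_comm
            _ = _ := Finset.sum_comm
  have hupper : ∑ σ : Kn N →ₐ[ℚ] ℂ, ∑ χ : IrrCharacter X, ∑ ξ : IrrCharacter H, ‖σ (x χ ξ)‖ ^ 2 ≤
      (Fintype.card (Kn N →ₐ[ℚ] ℂ) : ℝ) * ((Nat.card V : ℝ) * Nat.card (IrrCharacter H)) := by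
    have h1 := Finset.sum_le_sum (s := (Finset.univ : Finset (Kn N →ₐ[ℚ] ℂ))) fun σ _ => hup σ
    simpa only [Finset.sum_const, Finset.card_univ, nsmul_eq_mul] using h1
  have hfinal := hlower.trans hupper
  have h2 : (Nat.card (IrrCharacter X) : ℝ) ≤ Nat.card V := by
    have h3 := le_of_mul_le_mul_left hfinal hEmb'
    exact le_of_mul_le_mul_right h3 hkH
  rw [← card_irr_eq_card_conjClasses]
  exact_mod_cast h2

end Main

end Cfsg.Agent.Lib.Char.RVCount
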