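import Cfsg.Agent.Lib.Char.RVGood
import Cfsg.Agent.Lib.Char.RVCount
import Mathlib

/-!
# The real vector criterion: assembly

From a faithful self-dual subgroup `U` of `V`, for the centralizer `H` of `v` in the complement `G`,
we produce good functions on `H` with `RVGood.exists_good` and then count with `RVCount.count`.
-/

set_option autoImplicit false
set_option linter.style.haveILetI false
set_option linter.unusedSectionVars false

namespace Cfsg.Agent.Lib.Char.RVBridge

open Cfsg Module
open Cfsg.Agent.Lib.Char.RVPiece Cfsg.Agent.Lib.Char.RVGood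

universe u

section Card

variable {X : Type u} [Group X] [Finite X]

theorem card_subgroupOf (K L : Subgroup X) : Nat.card (K.subgroupOf L) = Nat.card (K ⊓ L : Subgroup X) := by
  refine Nat.card_eq_of_bijective (β := (K ⊓ L : Subgroup X))
    (fun w => ⟨w.1.1, Subgroup.mem_inf.mpr ⟨Subgroup.mem_subgroupOf.mp w.2, w.1.2⟩⟩) ⟨?_, ?_⟩
  · intro a c hac
    apply Subtype.ext
    apply Subtype.ext
    exact congrArg (fun z : (K ⊓ L : Subgroup X) => (z : X)) hac
  · rintro ⟨x, hx⟩
    obtain ⟨h1, h2⟩ := Subgroup.mem_inf.mp hx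
    exact ⟨⟨⟨x, h2⟩, Subgroup.mem_subgroupOf.mpr h1⟩, rfl⟩

theorem card_mul_relIndex' (K L : Subgroup X) : Nat.card (K ⊓ L : Subgroup X) * K.relIndex L = Nat.card L := by
  rw [← card_subgroupOf, Subgroup.relIndex, Subgroup.card_mul_index]

/-- The orbit comparison: `|A : A ∩ C| ≤ |B : B ∩ C|` for `A ≤ B`. -/
theorem index_bound (A B C : Subgroup X) (hAB : A ≤ B) :
    Nat.card A * Nat.card (B ⊓ C : Subgroup X) ≤ Nat.card (A ⊓ C : Subgroup X) * Nat.card B := by
  have h1 := card_mul_relIndex' (C ⊓ A) B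
  have h2 := card_mul_relIndex' C B
  have h3 := card_mul_relIndex' A B
  have h4 := Subgroup.relIndex_inf_le (H := C) (K := A) (L := B)
  have e1 : C ⊓ A ⊓ B = A ⊓ C := by
    rw [inf_assoc, inf_eq_left.mpr hAB, inf_comm]
  have e2 : C ⊓ B = B ⊓ C := inf_comm _ _
  have e3 : A ⊓ B = A := inf_eq_left.mpr hAB
  rw [e1] at h1
  rw [e2] at h2
  rw [e3] at h3
  have hn : 0 < Nat.card B := Nat.card_pos
  set a := Nat.card (A ⊓ C : Subgroup X)
  set c := Nat.card (B ⊓ C : Subgroup X)
  set d := Nat.card A
  set n := Nat.card B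
  set x := (C ⊓ A).relIndex B
  set y := C.relIndex B
  set z := A.relIndex B
  have hyz : 0 < y * z := by
    rw [Nat.pos_iff_ne_zero]
    intro h0
    rcases Nat.mul_eq_zero.mp h0 with h | h
    · rw [h, mul_zero] at h2; omega
    · rw [h, mul_zero] at h3; omega
  refine Nat.le_of_mul_le_mul_right ?_ hyz
  calc d * c * (y * z) = (d * z) * (c * y) := by ring
    _ = n * n := by rw [h3, h2]
    _ = a * n * x := by rw [← h1]; ring
    _ ≤ a * n * (y * z) := Nat.mul_le_mul_left _ h4

end Card

section Main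

variable {X : Type u} [Group X] [Finite X]

theorem main (p : ℕ) [Fact p.Prime] (V : Subgroup X) [V.Normal]
    (hVexp : ∀ v ∈ V, v ^ p = 1) (hidx : ¬ p ∣ V.index)
    (hself : Subgroup.centralizer (V : Set X) = V) (G : Subgroup X)
    (hGV : Subgroup.IsComplement' V G) (v : X) (hv : v ∈ V) (U : Subgroup X) (hUV : U ≤ V)
    (hUinv : ∀ h ∈ G, h * v * h⁻¹ = v → ∀ u ∈ U, h * u * h⁻¹ ∈ U)
    (hUfaith : ∀ h ∈ G, h * v * h⁻¹ = v → (∀ u ∈ U, h * u * h⁻¹ = u) → h = 1)
    (β : X → X → ZMod p) (hβl : ∀ u ∈ U, ∀ u' ∈ U, ∀ w ∈ U, β (u * u') w = β u w + β u' w)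
    (hβr : ∀ u ∈ U, ∀ w ∈ U, ∀ w' ∈ U, β u (w * w') = β u w + β u w')
    (hβinv : ∀ h ∈ G, h * v * h⁻¹ = v → ∀ u ∈ U, ∀ w ∈ U, β (h * u * h⁻¹) (h * w * h⁻¹) = β u w)
    (hβnd : ∀ u ∈ U, (∀ w ∈ U, β u w = 0) → u = 1) : Nat.card (ConjClasses X) ≤ Nat.card V := by
  classical
  have hp : p.Prime := Fact.out
  have hcommV : ∀ x ∈ V, ∀ y ∈ V, x * y = y * x := by
    intro x hx y hy
    have h1 : x ∈ Subgroup.centralizer (V : Set X) := by rw [hself]; exact hx
    rw [Subgroup.mem_centralizer_iff] at h1
    exact (h1 y hy).symm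
  let H : Subgroup X := G ⊓ Subgroup.centralizer ({v} : Set X)
  have hH : ∀ x, x ∈ H ↔ x ∈ G ∧ x * v = v * x := by
    intro x
    simp only [H, Subgroup.mem_inf, Subgroup.mem_centralizer_singleton_iff]
  have hHG : ∀ h : H, (h : X) ∈ G := fun h => ((hH h).mp h.2).1
  have hHv : ∀ h : H, (h : X) * v * (h : X)⁻¹ = v := fun h => by
    rw [((hH h).mp h.2).2]
    group
  have hHcop : ¬ p ∣ Nat.card H := by
    intro hd
    apply hidx
    rw [hGV.symm.index_eq_card]
    exact hd.trans (Subgroup.card_dvd_of_le fun x hx => ((hH x).mp hx).1)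
  letI cg : CommGroup U :=
    { (inferInstance : Group U) with
      mul_comm := fun a c => Subtype.ext (hcommV _ (hUV a.2) _ (hUV c.2)) }
  letI act : DistribMulAction H (Additive U) :=
    { smul := fun h u => Additive.ofMul ⟨(h : X) * ((Additive.toMul u : U) : X) * (h : X)⁻¹,
        hUinv _ (hHG h) (hHv h) _ (Additive.toMul u).2⟩
      one_smul := fun u => by
        apply Additive.toMul.injective
        apply Subtype.ext
        change ((1 : H) : X) * _ * ((1 : H) : X)⁻¹ = _
        simp
      mul_smul := fun a c u => by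
        apply Additive.toMul.injective
        apply Subtype.ext
        change ((a * c : H) : X) * _ * ((a * c : H) : X)⁻¹ = (a : X) * ((c : X) * _ * (c : X)⁻¹) * (a : X)⁻¹
        push_cast
        group
      smul_zero := fun h => by
        apply Additive.toMul.injective
        apply Subtype.ext
        change (h : X) * 1 * (h : X)⁻¹ = 1
        group
      smul_add := fun h a c => by
        apply Additive.toMul.injective
        apply Subtype.ext
        change (h : X) * (((Additive.toMul a : U) : X) * ((Additive.toMul c : U) : X)) * (h : X)⁻¹ =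
          ((h : X) * ((Additive.toMul a : U) : X) * (h : X)⁻¹) *
            ((h : X) * ((Additive.toMul c : U) : X) * (h : X)⁻¹)
        group }
  have hsmul : ∀ (h : H) (u : Additive U), (((Additive.toMul (h • u)) : U) : X) =
      (h : X) * ((Additive.toMul u : U) : X) * (h : X)⁻¹ := fun _ _ => rfl
  haveI : Finite (Additive U) := Finite.of_equiv _ Additive.ofMul
  let b : Additive U →+ Additive U →+ ZMod p := AddMonoidHom.mk'
    (fun x => AddMonoidHom.mk' (fun y => β ((Additive.toMul x : U) : X) ((Additive.toMul y : U) : X))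
      (fun a c => hβr _ (Additive.toMul x).2 _ (Additive.toMul a).2 _ (Additive.toMul c).2))
    (fun a c => by
      ext y
      exact hβl _ (Additive.toMul a).2 _ (Additive.toMul c).2 _ (Additive.toMul y).2)
  have hbdef : ∀ x y : Additive U, b x y = β ((Additive.toMul x : U) : X) ((Additive.toMul y : U) : X) :=
    fun _ _ => rfl
  have hUp : ∀ u : Additive U, p • u = 0 := by
    intro u
    apply Additive.toMul.injective
    apply Subtype.ext
    rw [toMul_nsmul]
    push_cast
    exact hVexp _ (hUV (Additive.toMul u).2)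
  have hfaith : ∀ h : H, (∀ u : Additive U, h • u = u) → h = 1 := by
    intro h hh
    apply Subtype.ext
    refine hUfaith _ (hHG h) (hHv h) fun u hu => ?_
    have h1 := hh (Additive.ofMul ⟨u, hu⟩)
    exact congrArg (fun z : Additive U => ((Additive.toMul z : U) : X)) h1
  have hinv : ∀ (h : H) x y, b (h • x) (h • y) = b x y := by
    intro h x y
    rw [hbdef, hbdef, hsmul, hsmul]
    exact hβinv _ (hHG h) (hHv h) _ (Additive.toMul x).2 _ (Additive.toMul y).2
  have hnd : ∀ x, (∀ y, b x y = 0) → x = 0 := by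
    intro x hx
    apply Additive.toMul.injective
    apply Subtype.ext
    refine hβnd _ (Additive.toMul x).2 fun w hw => ?_
    exact hx (Additive.ofMul ⟨w, hw⟩)
  obtain ⟨U', lam, hInv, hgood, hfaith'⟩ := exists_good (H := H) (U := Additive U) (p := p)
    hHcop hUp hfaith b hinv hnd
  -- the image of `U'` in `X`
  let U'' : Subgroup X :=
    { carrier := {x | ∃ hx : x ∈ U, Additive.ofMul (⟨x, hx⟩ : U) ∈ U'}
      one_mem' := ⟨U.one_mem, U'.zero_mem⟩
      mul_mem' := by
        rintro a c ⟨ha, ha'⟩ ⟨hc, hc'⟩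
        exact ⟨U.mul_mem ha hc, U'.add_mem ha' hc'⟩
      inv_mem' := by
        rintro a ⟨ha, ha'⟩
        exact ⟨U.inv_mem ha, U'.neg_mem ha'⟩ }
  have hU''V : U'' ≤ V := fun x hx => hUV hx.1
  have hcardU : Nat.card U' = Nat.card U'' := by
    refine Nat.card_eq_of_bijective (β := U'')
      (fun w => ⟨((Additive.toMul w.1 : U) : X), (Additive.toMul w.1).2, w.2⟩) ⟨?_, ?_⟩
    · intro a c hac
      apply Subtype.ext
      apply Additive.toMul.injective
      apply Subtype.ext
      exact congrArg (fun z : U'' => (z : X)) hac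
    · rintro ⟨x, hx, hx'⟩
      exact ⟨⟨_, hx'⟩, rfl⟩
  have hfxOn : ∀ h : H, fxOn U' h = Nat.card (U'' ⊓ Subgroup.centralizer ({(h : X)} : Set X) : Subgroup X) := by
    intro h
    refine Nat.card_eq_of_bijective (β := (U'' ⊓ Subgroup.centralizer ({(h : X)} : Set X) : Subgroup X))
      (fun w => ⟨((Additive.toMul w.1 : U) : X), Subgroup.mem_inf.mpr ⟨⟨(Additive.toMul w.1).2, w.2.1⟩, ?_⟩⟩) ⟨?_, ?_⟩
    · rw [Subgroup.mem_centralizer_singleton_iff]
      have h2 := congrArg (fun z : Additive U => ((Additive.toMul z : U) : X)) w.2.2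
      simp only [hsmul] at h2
      exact ((mul_inv_eq_iff_eq_mul.mp h2)).symm
    · intro a c hac
      apply Subtype.ext
      apply Additive.toMul.injective
      apply Subtype.ext
      exact congrArg (fun z : (U'' ⊓ Subgroup.centralizer ({(h : X)} : Set X) : Subgroup X) => (z : X)) hac
    · rintro ⟨x, hx⟩
      obtain ⟨⟨h1, h2⟩, h3⟩ := Subgroup.mem_inf.mp hx
      refine ⟨⟨_, h2, ?_⟩, rfl⟩
      apply Additive.toMul.injective
      apply Subtype.ext
      rw [Subgroup.mem_centralizer_singleton_iff] at h3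
      change (h : X) * x * (h : X)⁻¹ = x
      rw [← h3]
      group
  letI act' : DistribMulAction H U' := subAction U' hInv
  have hfxeq : ∀ h : H, fx U' h = fxOn U' h := by
    intro h
    refine Nat.card_eq_of_bijective (β := {w : Additive U // w ∈ U' ∧ h • w = w})
      (fun w => ⟨w.1.1, w.1.2, congrArg Subtype.val w.2⟩) ⟨?_, ?_⟩
    · intro a c hac
      apply Subtype.ext
      apply Subtype.ext
      exact congrArg (fun z : {w : Additive U // w ∈ U' ∧ h • w = w} => z.1) hac
    · rintro ⟨x, hx, hx'⟩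
      exact ⟨⟨⟨x, hx⟩, Subtype.ext hx'⟩, rfl⟩
  refine RVCount.count p V hVexp hidx hself G hGV v hv H hH lam (fxOn U') (Nat.card U')
    hgood.one hgood.integral ?_ ?_ (fxOn_pos U' ·|>.ne') ?_ hgood.span hgood.normSq ?_ hgood.cyc
  · intro h hh
    refine hgood.small h ?_
    by_contra hcon
    exact hh (hfaith' h fun w hw => by
      by_contra h5
      exact hcon ⟨w, hw, h5⟩)
  · have h1 := isCharacter_fx (H := H) U'
    convert h1 using 2 with h
    exact_mod_cast (hfxeq h).symm
  · intro h
    rw [← hfxeq, fx_eq_card]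
    haveI : Finite (fixSub U' h) := inferInstance
    refine Nat.Coprime.symm (WeilPiece.coprime_card (H := H) (W := fixSub U' h) (p := p) hHcop ?_)
    intro w
    apply Subtype.ext
    apply Subtype.ext
    have h3 := hUp ((w : U') : Additive U)
    simpa using h3
  · intro h
    have h1 := index_bound U'' V (Subgroup.centralizer ({(h : X)} : Set X)) hU''V
    rw [← hcardU, ← hfxOn] at h1
    exact_mod_cast h1

end Main

end Cfsg.Agent.Lib.Char.RVBridge
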