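import Cfsg.Agent.Lib.Char.WeilPiece
import Mathlib

/-!
# Reduction to pieces: faithful good subgroups

Let `H` be a `p'`-group acting faithfully on a finite abelian group `U` killed by `p`, preserving a
nondegenerate bilinear form.  Then there is an invariant subgroup `U'` on which `H` is faithful,
carrying a good function (a product of Gauss and Weil pieces).
-/

set_option autoImplicit false
set_option linter.style.haveILetI false
set_option linter.unusedSectionVars false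

namespace Cfsg.Agent.Lib.Char.RVGood

open Cfsg Module
open Cfsg.Agent.Lib.Char.Basic Cfsg.Agent.Lib.Char.RVPiece
open Cfsg.Agent.Lib.Char.AlgSpan Cfsg.Agent.Lib.Char.PSmall Cfsg.Agent.Lib.Char.Galois

universe u v

variable (H : Type u) [Group H] {U : Type v} [AddCommGroup U] [DistribMulAction H U]

/-- Invariant subgroups. -/
def Inv (P : AddSubgroup U) : Prop := ∀ (h : H) (w : U), w ∈ P → h • w ∈ P

variable {H}

/-- The number of fixed points inside `P`. -/
noncomputable def fxOn (P : AddSubgroup U) (h : H) : ℕ := Nat.card {w : U // w ∈ P ∧ h • w = w}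

/-- The properties of a good function on the subgroup `P`. -/
structure GoodOn (p : ℕ) (P : AddSubgroup U) (lam : H → ℂ) : Prop where
  one : lam 1 = 1
  integral : ∀ h, IsIntegral ℤ (lam h)
  small : ∀ h, (∃ w ∈ P, h • w ≠ w) → IsSmall p (lam h)
  normSq : ∀ h, ‖lam h‖ ^ 2 * (fxOn P h : ℝ) = Nat.card P
  span : InAlgSpan (fun h => (fxOn P h : ℂ) * lam h)
  cyc : ∃ N, N ≠ 0 ∧ ∀ h, lam h ∈ Kn N

/-- Transfer from pieces along an equivariant embedding. -/
theorem goodOn_of_piece {W : Type*} [AddCommGroup W] [DistribMulAction H W] {p : ℕ} {lam : H → ℂ}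
    (hp : IsPiece W p lam) (f : W →+ U) (hinj : Function.Injective f) (P : AddSubgroup U)
    (hrange : ∀ u, u ∈ P ↔ ∃ w, f w = u) (heq : ∀ (h : H) w, f (h • w) = h • f w) :
    GoodOn p P lam := by
  have hfx : ∀ h : H, fx W h = fxOn P h := by
    intro h
    refine Nat.card_eq_of_bijective (β := {w : U // w ∈ P ∧ h • w = w})
      (fun w => ⟨f w.1, (hrange _).mpr ⟨w.1, rfl⟩, by rw [← heq, w.2]⟩) ⟨?_, ?_⟩
    · intro a c hac
      exact Subtype.ext (hinj (congrArg (fun z : {w : U // w ∈ P ∧ h • w = w} => z.1) hac))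
    · rintro ⟨u, hu, hfu⟩
      obtain ⟨w, rfl⟩ := (hrange u).mp hu
      refine ⟨⟨w, hinj ?_⟩, rfl⟩
      rw [heq, hfu]
  have hcard : Nat.card W = Nat.card P := by
    refine Nat.card_eq_of_bijective (β := P) (fun w => ⟨f w, (hrange _).mpr ⟨w, rfl⟩⟩) ⟨?_, ?_⟩
    · intro a c hac
      exact hinj (congrArg Subtype.val hac)
    · rintro ⟨u, hu⟩
      obtain ⟨w, rfl⟩ := (hrange u).mp hu
      exact ⟨w, rfl⟩
  refine
    { one := hp.one
      integral := hp.integral
      small := ?_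
      normSq := ?_
      span := ?_
      cyc := hp.cyc }
  · rintro h ⟨u, hu, hne⟩
    obtain ⟨w, rfl⟩ := (hrange u).mp hu
    refine hp.small h ⟨w, fun h0 => hne ?_⟩
    rw [← heq, h0]
  · intro h
    rw [← hfx, ← hcard]
    exact hp.normSq h
  · refine hp.span.congr fun h => ?_
    rw [hfx]

theorem fxOn_pos [Finite U] (P : AddSubgroup U) (h : H) : 0 < fxOn P h := by
  have : Nonempty {w : U // w ∈ P ∧ h • w = w} := ⟨⟨0, P.zero_mem, smul_zero _⟩⟩
  exact Nat.card_pos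

/-- The trivial subgroup is good. -/
theorem goodOn_bot {p : ℕ} : GoodOn (H := H) p (⊥ : AddSubgroup U) (fun _ => 1) := by
  have hfx : ∀ h : H, fxOn (⊥ : AddSubgroup U) h = 1 := by
    intro h
    refine Nat.card_eq_one_iff_unique.mpr ⟨⟨?_⟩, ⟨⟨0, rfl, smul_zero _⟩⟩⟩
    rintro ⟨a, ha, -⟩ ⟨c, hc, -⟩
    exact Subtype.ext ((AddSubgroup.mem_bot.mp ha).trans (AddSubgroup.mem_bot.mp hc).symm)
  refine
    { one := rfl
      integral := fun _ => isIntegral_one
      small := ?_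
      normSq := ?_
      span := ?_
      cyc := ⟨1, one_ne_zero, fun h => one_mem _⟩ }
  · rintro h ⟨w, hw, hne⟩
    rw [(AddSubgroup.mem_bot).mp hw, smul_zero] at hne
    exact absurd rfl hne
  · intro h
    rw [hfx]
    simp
  · refine (InAlgSpan.char _ isCharacter_one).congr fun h => ?_
    rw [hfx]
    simp

theorem kn_mono {a c : ℕ} (hc : c ≠ 0) (hac : a ∣ c) : Kn a ≤ Kn c := by
  refine IntermediateField.adjoin.mono _ _ _ ?_
  rintro x ⟨m, hm, hm0, hx⟩
  rw [Set.mem_singleton_iff] at hm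
  subst hm
  refine ⟨c, rfl, hc, ?_⟩
  obtain ⟨d, rfl⟩ := hac
  rw [pow_mul, hx, one_pow]

/-- Products of good functions on disjoint subgroups. -/
theorem goodOn_sup [Finite U] {p : ℕ} {P₁ P₂ : AddSubgroup U} (h1 : Inv H P₁) (h2 : Inv H P₂)
    (hd : ∀ x, x ∈ P₁ → x ∈ P₂ → x = 0) {lam₁ lam₂ : H → ℂ} (g₁ : GoodOn p P₁ lam₁)
    (g₂ : GoodOn p P₂ lam₂) : GoodOn p (P₁ ⊔ P₂) (fun h => lam₁ h * lam₂ h) := by
  have huniq : ∀ {a a' c c' : U}, a ∈ P₁ → a' ∈ P₁ → c ∈ P₂ → c' ∈ P₂ → a + c = a' + c' →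
      a = a' ∧ c = c' := by
    intro a a' c c' ha ha' hc hc' he
    have h3 : a - a' = c' - c := by
      rw [sub_eq_sub_iff_add_eq_add, he, add_comm]
    have h4 : a - a' = 0 := hd _ (P₁.sub_mem ha ha') (h3 ▸ P₂.sub_mem hc' hc)
    refine ⟨sub_eq_zero.mp h4, ?_⟩
    rw [h4] at h3
    exact (sub_eq_zero.mp h3.symm).symm
  have hfx : ∀ h : H, fxOn (P₁ ⊔ P₂) h = fxOn P₁ h * fxOn P₂ h := by
    intro h
    unfold fxOn
    rw [← Nat.card_prod]
    symm
    refine Nat.card_eq_of_bijective (β := {w : U // w ∈ P₁ ⊔ P₂ ∧ h • w = w})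
      (fun x => ⟨x.1.1 + x.2.1, AddSubgroup.add_mem_sup x.1.2.1 x.2.2.1, by
        rw [smul_add, x.1.2.2, x.2.2.2]⟩) ⟨?_, ?_⟩
    · rintro ⟨⟨a, ha, hha⟩, ⟨c, hc, hhc⟩⟩ ⟨⟨a', ha', hha'⟩, ⟨c', hc', hhc'⟩⟩ he
      obtain ⟨e1, e2⟩ := huniq ha ha' hc hc' (congrArg Subtype.val he)
      subst e1
      subst e2
      rfl
    · rintro ⟨u, hu, hfu⟩
      obtain ⟨a, ha, c, hc, rfl⟩ := AddSubgroup.mem_sup.mp hu
      rw [smul_add] at hfu
      obtain ⟨e1, e2⟩ := huniq (h1 h a ha) ha (h2 h c hc) hc hfu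
      exact ⟨⟨⟨a, ha, e1⟩, ⟨c, hc, e2⟩⟩, rfl⟩
  have hcard : Nat.card (P₁ ⊔ P₂ : AddSubgroup U) = Nat.card P₁ * Nat.card P₂ := by
    rw [← Nat.card_prod]
    symm
    refine Nat.card_eq_of_bijective (β := (P₁ ⊔ P₂ : AddSubgroup U))
      (fun x => ⟨x.1.1 + x.2.1, AddSubgroup.add_mem_sup x.1.2 x.2.2⟩) ⟨?_, ?_⟩
    · rintro ⟨⟨a, ha⟩, ⟨c, hc⟩⟩ ⟨⟨a', ha'⟩, ⟨c', hc'⟩⟩ he
      obtain ⟨e1, e2⟩ := huniq ha ha' hc hc' (congrArg Subtype.val he)
      subst e1
      subst e2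
      rfl
    · rintro ⟨u, hu⟩
      obtain ⟨a, ha, c, hc, rfl⟩ := AddSubgroup.mem_sup.mp hu
      exact ⟨⟨⟨a, ha⟩, ⟨c, hc⟩⟩, rfl⟩
  refine
    { one := by simp only [g₁.one, g₂.one, mul_one]
      integral := fun h => (g₁.integral h).mul (g₂.integral h)
      small := ?_
      normSq := ?_
      span := ?_
      cyc := ?_ }
  · rintro h ⟨w, hw, hne⟩
    obtain ⟨a, ha, c, hc, rfl⟩ := AddSubgroup.mem_sup.mp hw
    by_cases hfa : h • a = a
    · have hfc : h • c ≠ c := by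
        intro hfc
        apply hne
        rw [smul_add, hfa, hfc]
      exact (g₂.small h ⟨c, hc, hfc⟩).mul_left (g₁.integral h)
    · exact (g₁.small h ⟨a, ha, hfa⟩).mul_right (g₂.integral h)
  · intro h
    rw [hfx, hcard, norm_mul]
    push_cast
    rw [← g₁.normSq h, ← g₂.normSq h]
    ring
  · refine (g₁.span.mul g₂.span).congr fun h => ?_
    rw [hfx]
    push_cast
    ring
  · obtain ⟨N₁, hN₁, h₁⟩ := g₁.cyc
    obtain ⟨N₂, hN₂, h₂⟩ := g₂.cyc
    refine ⟨N₁ * N₂, mul_ne_zero hN₁ hN₂, fun h => ?_⟩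
    exact mul_mem (kn_mono (mul_ne_zero hN₁ hN₂) (dvd_mul_right _ _) (h₁ h))
      (kn_mono (mul_ne_zero hN₁ hN₂) (dvd_mul_left _ _) (h₂ h))

theorem inv_sup {P₁ P₂ : AddSubgroup U} (h1 : Inv H P₁) (h2 : Inv H P₂) : Inv H (P₁ ⊔ P₂) := by
  intro h w hw
  obtain ⟨a, ha, c, hc, rfl⟩ := AddSubgroup.mem_sup.mp hw
  rw [smul_add]
  exact AddSubgroup.add_mem_sup (h1 h a ha) (h2 h c hc)

/-- The restricted action. -/
@[reducible] def subAction (P : AddSubgroup U) (hP : Inv H P) : DistribMulAction H P where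
  smul h w := ⟨h • w.1, hP h w.1 w.2⟩
  one_smul w := Subtype.ext (one_smul _ _)
  mul_smul a b w := Subtype.ext (mul_smul _ _ _)
  smul_zero h := Subtype.ext (smul_zero _)
  smul_add h a b := Subtype.ext (smul_add _ _ _)

section Forms

variable {p : ℕ} [Fact p.Prime]

/-- The form restricted to a subgroup. -/
def resF (c : U →+ U →+ ZMod p) (P : AddSubgroup U) : P →+ P →+ ZMod p :=
  (c.comp P.subtype).compl₂ P.subtype

theorem resF_apply (c : U →+ U →+ ZMod p) (P : AddSubgroup U) (a d : P) : resF c P a d = c a d := rfl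

/-- A Gauss piece on a subgroup. -/
theorem good_gauss [Finite H] [Finite U] (hcop : ¬ p ∣ Nat.card H) (hUp : ∀ u : U, p • u = 0)
    (P : AddSubgroup U) (hP : Inv H P) (c : U →+ U →+ ZMod p) (hsymm : ∀ x ∈ P, ∀ y ∈ P, c x y = c y x)
    (hinv : ∀ (h : H), ∀ x ∈ P, ∀ y ∈ P, c (h • x) (h • y) = c x y)
    (hnd : ∀ x ∈ P, (∀ y ∈ P, c x y = 0) → x = 0) : ∃ lam : H → ℂ, GoodOn p P lam := by
  letI := subAction P hP
  obtain ⟨lam, hlam⟩ := Cfsg.Agent.Lib.Char.GaussPiece.exists_piece (H := H) (W := P) (p := p) hcop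
    (fun w => Subtype.ext (hUp w.1)) (resF c P) (fun x y => hsymm x x.2 y y.2)
    (fun h x y => hinv h x x.2 y y.2)
    (fun x hx => Subtype.ext (hnd x x.2 fun y hy => hx ⟨y, hy⟩))
  exact ⟨lam, goodOn_of_piece hlam P.subtype Subtype.val_injective P
    (fun u => ⟨fun hu => ⟨⟨u, hu⟩, rfl⟩, fun ⟨w, hw⟩ => hw ▸ w.2⟩) (fun _ _ => rfl)⟩

/-- A Weil piece on a subgroup. -/
theorem good_weil [Finite H] [Finite U] (hcop : ¬ p ∣ Nat.card H) (hUp : ∀ u : U, p • u = 0)
    (P : AddSubgroup U) (hP : Inv H P) (c : U →+ U →+ ZMod p)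
    (hinv : ∀ (h : H), ∀ x ∈ P, ∀ y ∈ P, c (h • x) (h • y) = c x y)
    (hnd : ∀ y ∈ P, y ≠ 0 → ∃ x ∈ P, c x y - c y x ≠ 0) : ∃ lam : H → ℂ, GoodOn p P lam := by
  letI := subAction P hP
  obtain ⟨lam, hlam⟩ := Cfsg.Agent.Lib.Char.WeilPiece.exists_piece (H := H) (W := P) (p := p) hcop
    (fun w => Subtype.ext (hUp w.1)) (resF c P) (fun h x y => hinv h x x.2 y y.2)
    (fun y hy => by
      obtain ⟨x, hx, hne⟩ := hnd y y.2 (fun h0 => hy (Subtype.ext h0))
      exact ⟨⟨x, hx⟩, hne⟩)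
  exact ⟨lam, goodOn_of_piece hlam P.subtype Subtype.val_injective P
    (fun u => ⟨fun hu => ⟨⟨u, hu⟩, rfl⟩, fun ⟨w, hw⟩ => hw ▸ w.2⟩) (fun _ _ => rfl)⟩

/-- The hyperbolic form on a product. -/
def hypForm (β : U →+ U →+ ZMod p) (M M' : AddSubgroup U) : (M × M') →+ (M × M') →+ ZMod p :=
  AddMonoidHom.mk' (fun x => AddMonoidHom.mk' (fun y => β x.1 y.2 + β y.1 x.2)
    (fun a c => by
      simp only [Prod.fst_add, Prod.snd_add, AddSubgroup.coe_add, map_add, AddMonoidHom.add_apply]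
      ring))
    (fun a c => by
      ext y
      simp only [AddMonoidHom.mk'_apply, Prod.fst_add, Prod.snd_add, AddSubgroup.coe_add, map_add,
        AddMonoidHom.add_apply]
      ring)

theorem hypForm_apply (β : U →+ U →+ ZMod p) (M M' : AddSubgroup U) (x y : M × M') :
    hypForm β M M' x y = β x.1 y.2 + β y.1 x.2 := rfl

/-- A hyperbolic piece on the sum of two subgroups in perfect pairing. -/
theorem good_hyp [Finite H] [Finite U] (hcop : ¬ p ∣ Nat.card H) (hUp : ∀ u : U, p • u = 0)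
    (M M' : AddSubgroup U) (hM : Inv H M) (hM' : Inv H M') (hd : ∀ x, x ∈ M → x ∈ M' → x = 0)
    (β : U →+ U →+ ZMod p) (hinv : ∀ (h : H) x y, β (h • x) (h • y) = β x y)
    (hnd1 : ∀ m ∈ M, (∀ y ∈ M', β m y = 0) → m = 0) (hnd2 : ∀ y ∈ M', (∀ m ∈ M, β m y = 0) → y = 0) :
    ∃ lam : H → ℂ, GoodOn p (M ⊔ M') lam := by
  letI a1 := subAction M hM
  letI a2 := subAction M' hM'
  obtain ⟨lam, hlam⟩ := Cfsg.Agent.Lib.Char.GaussPiece.exists_piece (H := H) (W := M × M') (p := p) hcop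
    (fun w => Prod.ext (Subtype.ext (hUp w.1.1)) (Subtype.ext (hUp w.2.1))) (hypForm β M M')
    (fun x y => by
      rw [hypForm_apply, hypForm_apply, add_comm])
    (fun h x y => by
      rw [hypForm_apply, hypForm_apply]
      change β (h • (x.1 : U)) (h • (y.2 : U)) + β (h • (y.1 : U)) (h • (x.2 : U)) = _
      rw [hinv, hinv])
    (fun x hx => by
      refine Prod.ext (Subtype.ext ?_) (Subtype.ext ?_)
      · refine hnd1 x.1 x.1.2 fun y hy => ?_
        have := hx (0, ⟨y, hy⟩)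
        rw [hypForm_apply] at this
        simpa using this
      · refine hnd2 x.2 x.2.2 fun m hm => ?_
        have := hx (⟨m, hm⟩, 0)
        rw [hypForm_apply] at this
        simpa using this)
  let f : (M × M') →+ U := AddMonoidHom.coprod M.subtype M'.subtype
  have hf : ∀ x, f x = (x.1 : U) + x.2 := fun x => rfl
  refine ⟨lam, goodOn_of_piece hlam f ?_ _ ?_ ?_⟩
  · intro x y hxy
    rw [hf, hf] at hxy
    have h3 : (x.1 : U) - y.1 = (y.2 : U) - x.2 := by
      rw [sub_eq_sub_iff_add_eq_add, hxy, add_comm]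
    have h4 : (x.1 : U) - y.1 = 0 := hd _ (M.sub_mem x.1.2 y.1.2) (h3 ▸ M'.sub_mem y.2.2 x.2.2)
    rw [h4] at h3
    exact Prod.ext (Subtype.ext (sub_eq_zero.mp h4)) (Subtype.ext (sub_eq_zero.mp h3.symm).symm)
  · intro u
    constructor
    · intro hu
      obtain ⟨a, ha, c, hc, rfl⟩ := AddSubgroup.mem_sup.mp hu
      exact ⟨(⟨a, ha⟩, ⟨c, hc⟩), rfl⟩
    · rintro ⟨w, rfl⟩
      exact AddSubgroup.add_mem_sup w.1.2 w.2.2
  · intro h w
    rw [hf, hf, smul_add]
    rfl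

end Forms

section Maschke

variable {p : ℕ} [Fact p.Prime]

/-- An inverse of a number prime to `p`, acting on a group killed by `p`. -/
theorem exists_nsmul_inverse (hUp : ∀ u : U, p • u = 0) {n : ℕ} (hn : ¬ p ∣ n) :
    ∃ t : ℕ, ∀ x : U, t • n • x = x := by
  have hp : p.Prime := Fact.out
  obtain ⟨t, -, ht⟩ := Nat.exists_mul_mod_eq_one_of_coprime
    ((Nat.Prime.coprime_iff_not_dvd hp).mpr hn).symm hp.one_lt
  refine ⟨t, fun x => ?_⟩
  have h1 : n * t = (n * t / p) * p + 1 := by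
    have := Nat.div_add_mod (n * t) p
    rw [ht, mul_comm p] at this
    exact this.symm
  rw [smul_smul, mul_comm t n, h1, add_smul, mul_smul, hUp, smul_zero, zero_add, one_smul]

theorem exists_retr {K V : Type*} [Field K] [AddCommGroup V] [Module K V] (N : Submodule K V) :
    ∃ g : V → V, (∀ a c, g (a + c) = g a + g c) ∧ (∀ u, g u ∈ N) ∧ ∀ n ∈ N, g n = n := by
  obtain ⟨C, hC⟩ := Submodule.exists_isCompl N
  refine ⟨fun u => (N.projectionOnto C hC u : N), fun a c => by simp, fun u => Subtype.coe_prop _,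
    fun n hn => ?_⟩
  have h1 := Submodule.projectionOnto_apply_of_mem_left hC hn
  exact congrArg Subtype.val h1

theorem exists_add_retr (hUp : ∀ u : U, p • u = 0) (N : AddSubgroup U) :
    ∃ g : U → U, (∀ a c, g (a + c) = g a + g c) ∧ (∀ u, g u ∈ N) ∧ ∀ n ∈ N, g n = n := by
  letI : Module (ZMod p) U := AddCommGroup.zmodModule hUp
  exact exists_retr (K := ZMod p) (V := U) (AddSubgroup.toZModSubmodule p N)

/-- Maschke's theorem for invariant subgroups. -/
theorem exists_compl [Finite H] [Finite U] (hcop : ¬ p ∣ Nat.card H) (hUp : ∀ u : U, p • u = 0)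
    (N Y : AddSubgroup U) (hNY : N ≤ Y) (hN : Inv H N) (hY : Inv H Y) :
    ∃ M' : AddSubgroup U, M' ≤ Y ∧ Inv H M' ∧ (∀ x, x ∈ N → x ∈ M' → x = 0) ∧
      ∀ y ∈ Y, ∃ n ∈ N, ∃ m' ∈ M', y = n + m' := by
  classical
  letI := Fintype.ofFinite H
  obtain ⟨g₀, hg₀add, hg₀N, hg₀id⟩ := exists_add_retr hUp N
  obtain ⟨t, ht⟩ := exists_nsmul_inverse hUp hcop
  let π : U →+ U := AddMonoidHom.mk' (fun u => t • ∑ h : H, h • g₀ (h⁻¹ • u))
    (fun a c => by
      simp only [smul_add, hg₀add, Finset.sum_add_distrib])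
  have hπ : ∀ u, π u = t • ∑ h : H, h • g₀ (h⁻¹ • u) := fun u => rfl
  have hπN : ∀ u, π u ∈ N := by
    intro u
    rw [hπ]
    exact N.nsmul_mem (N.sum_mem fun h _ => hN h _ (hg₀N _)) t
  have hπid : ∀ n ∈ N, π n = n := by
    intro n hn
    rw [hπ]
    have h1 : ∀ h : H, h • g₀ (h⁻¹ • n) = n := by
      intro h
      rw [hg₀id _ (hN h⁻¹ n hn), smul_inv_smul]
    simp only [h1, Finset.sum_const, Finset.card_univ]
    rw [← Nat.card_eq_fintype_card]
    exact ht n
  have hπeq : ∀ (k : H) u, π (k • u) = k • π u := by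
    intro k u
    rw [hπ, hπ]
    have h1 : ∀ (z : U) (n : ℕ), k • (n • z) = n • (k • z) := fun z n =>
      map_nsmul (DistribSMul.toAddMonoidHom U k) n z
    rw [h1]
    congr 1
    rw [Finset.smul_sum]
    refine (Equiv.sum_comp (Equiv.mulLeft k) (fun h => h • g₀ (h⁻¹ • k • u))).symm.trans ?_
    refine Finset.sum_congr rfl fun h _ => ?_
    simp [mul_smul]
  refine ⟨Y ⊓ π.ker, inf_le_left, ?_, ?_, ?_⟩
  · intro k y hy
    have h1 := AddSubgroup.mem_inf.mp hy
    refine AddSubgroup.mem_inf.mpr ⟨hY k y h1.1, ?_⟩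
    rw [AddMonoidHom.mem_ker, hπeq, AddMonoidHom.mem_ker.mp h1.2, smul_zero]
  · intro x hx hx'
    have h1 := AddMonoidHom.mem_ker.mp (AddSubgroup.mem_inf.mp hx').2
    rw [← hπid x hx, h1]
  · intro y hy
    refine ⟨π y, hπN y, y - π y, ?_, by abel⟩
    refine AddSubgroup.mem_inf.mpr ⟨Y.sub_mem hy (hNY (hπN y)), ?_⟩
    rw [AddMonoidHom.mem_ker, map_sub, hπid _ (hπN y), sub_self]

end Maschke

section Star

variable {p : ℕ} [Fact p.Prime]

/-- The left radical of a form on a subgroup. -/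
def radL (c : U →+ U →+ ZMod p) (M : AddSubgroup U) : AddSubgroup U where
  carrier := {x | x ∈ M ∧ ∀ z ∈ M, c x z = 0}
  zero_mem' := ⟨M.zero_mem, fun z _ => by simp⟩
  add_mem' := by
    rintro a d ⟨ha, ha'⟩ ⟨hd, hd'⟩
    refine ⟨M.add_mem ha hd, fun z hz => ?_⟩
    rw [map_add, AddMonoidHom.add_apply, ha' z hz, hd' z hz, add_zero]
  neg_mem' := by
    rintro a ⟨ha, ha'⟩
    refine ⟨M.neg_mem ha, fun z hz => ?_⟩
    rw [map_neg, AddMonoidHom.neg_apply, ha' z hz, neg_zero]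

/-- The left radical is trivial on an irreducible subgroup, unless the form vanishes. -/
theorem nondeg_of_irr (c : U →+ U →+ ZMod p) (hinv : ∀ (h : H) x y, c (h • x) (h • y) = c x y)
    (M : AddSubgroup U) (hM : Inv H M) (hirr : ∀ T : AddSubgroup U, T ≤ M → Inv H T → T = ⊥ ∨ T = M)
    (hne : ∃ x ∈ M, ∃ z ∈ M, c x z ≠ 0) : ∀ x ∈ M, (∀ z ∈ M, c x z = 0) → x = 0 := by
  have hT : Inv H (radL c M) := by
    rintro h x ⟨hx, hx'⟩
    refine ⟨hM h x hx, fun z hz => ?_⟩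
    have h1 := hinv h x (h⁻¹ • z)
    rw [smul_inv_smul] at h1
    rw [h1]
    exact hx' _ (hM h⁻¹ z hz)
  rcases hirr (radL c M) (fun x hx => hx.1) hT with h0 | h0
  · intro x hx hx'
    have h1 : x ∈ radL c M := ⟨hx, hx'⟩
    rw [h0] at h1
    exact (AddSubgroup.mem_bot).mp h1
  · obtain ⟨x, hx, z, hz, hne'⟩ := hne
    rw [← h0] at hx
    exact absurd (hx.2 z (h0 ▸ hz)) hne'

theorem exists_good_sub [Finite H] [Finite U] (hcop : ¬ p ∣ Nat.card H) (hUp : ∀ u : U, p • u = 0)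
    (β : U →+ U →+ ZMod p) (hinv : ∀ (h : H) x y, β (h • x) (h • y) = β x y) (Y : AddSubgroup U)
    (hY : Inv H Y) (hnd : ∀ y ∈ Y, (∀ z ∈ Y, β y z = 0) → y = 0) (hne : Y ≠ ⊥) :
    ∃ P : AddSubgroup U, P ≤ Y ∧ P ≠ ⊥ ∧ Inv H P ∧ ∃ lam : H → ℂ, GoodOn p P lam := by
  classical
  have hp : p.Prime := Fact.out
  let S : Set (AddSubgroup U) := {M | M ≤ Y ∧ M ≠ ⊥ ∧ Inv H M}
  have hSne : S.Nonempty := ⟨Y, le_rfl, hne, hY⟩
  obtain ⟨M, hMmin⟩ := S.toFinite.exists_minimal hSne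
  obtain ⟨hMY, hMne, hM⟩ := hMmin.1
  have hirr : ∀ T : AddSubgroup U, T ≤ M → Inv H T → T = ⊥ ∨ T = M := by
    intro T hTM hT
    by_cases h0 : T = ⊥
    · exact Or.inl h0
    · right
      exact le_antisymm hTM (hMmin.2 ⟨hTM.trans hMY, h0, hT⟩ hTM)
  by_cases hA : ∃ x ∈ M, ∃ z ∈ M, β x z ≠ 0
  · refine ⟨M, hMY, hMne, hM, ?_⟩
    have hL := nondeg_of_irr β hinv M hM hirr hA
    have hR : ∀ x ∈ M, (∀ z ∈ M, β z x = 0) → x = 0 := by
      obtain ⟨x, hx, z, hz, hxz⟩ := hA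
      exact nondeg_of_irr β.flip (fun h a c => hinv h c a) M hM hirr ⟨z, hz, x, hx, hxz⟩
    let s : U →+ U →+ ZMod p := β + β.flip
    have hsa : ∀ x y, s x y = β x y + β y x := fun x y => rfl
    by_cases hB : ∃ x ∈ M, ∃ z ∈ M, s x z ≠ 0
    · refine good_gauss hcop hUp M hM s (fun x _ y _ => by rw [hsa, hsa, add_comm])
        (fun h x _ y _ => by rw [hsa, hsa, hinv, hinv]) ?_
      exact nondeg_of_irr s (fun h x y => by rw [hsa, hsa, hinv, hinv]) M hM hirr hB
    · push Not at hB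
      have hanti : ∀ x ∈ M, ∀ y ∈ M, β x y + β y x = 0 := fun x hx y hy => hB x hx y hy
      rcases hp.eq_two_or_odd' with h2 | hodd
      · have h20 : (2 : ZMod p) = 0 := by
          have h3 : ((2 : ℕ) : ZMod p) = 0 :=
            (ZMod.natCast_eq_zero_iff 2 p).mpr (by rw [h2])
          exact_mod_cast h3
        refine good_gauss hcop hUp M hM β (fun x hx y hy => ?_) (fun h x _ y _ => hinv h x y) hL
        linear_combination hanti x hx y hy - β y x * h20
      · have h20 : (2 : ZMod p) ≠ 0 := by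
          intro h0
          have h3 : ((2 : ℕ) : ZMod p) = 0 := by exact_mod_cast h0
          rw [ZMod.natCast_eq_zero_iff] at h3
          have h4 := (Nat.prime_dvd_prime_iff_eq hp Nat.prime_two).mp h3
          rw [h4] at hodd
          exact absurd hodd (by decide)
        let b : U →+ U →+ ZMod p := β.compr₂ (AddMonoidHom.mulLeft (2 : ZMod p)⁻¹)
        have hb : ∀ x y, b x y = (2 : ZMod p)⁻¹ * β x y := fun x y => rfl
        refine good_weil hcop hUp M hM b (fun h x _ y _ => by rw [hb, hb, hinv]) ?_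
        intro y hy hy0
        by_contra hcon
        push Not at hcon
        apply hy0
        refine hR y hy fun z hz => ?_
        have h1 := hcon z hz
        rw [hb, hb] at h1
        have h3 := hanti z hz y hy
        have h4 : (2 : ZMod p)⁻¹ * 2 = 1 := inv_mul_cancel₀ h20
        have h5 : β y z = - β z y := by linear_combination h3
        rw [h5] at h1
        linear_combination h1 - β z y * h4
  · push Not at hA
    -- the annihilator of `M`
    let N : AddSubgroup U :=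
      { carrier := {y | y ∈ Y ∧ ∀ m ∈ M, β m y = 0}
        zero_mem' := ⟨Y.zero_mem, fun m _ => by simp⟩
        add_mem' := by
          rintro a d ⟨ha, ha'⟩ ⟨hd, hd'⟩
          refine ⟨Y.add_mem ha hd, fun m hm => ?_⟩
          rw [map_add, ha' m hm, hd' m hm, add_zero]
        neg_mem' := by
          rintro a ⟨ha, ha'⟩
          refine ⟨Y.neg_mem ha, fun m hm => ?_⟩
          rw [map_neg, ha' m hm, neg_zero] }
    have hNY : N ≤ Y := fun x hx => hx.1
    have hN : Inv H N := by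
      rintro h y ⟨hy, hy'⟩
      refine ⟨hY h y hy, fun m hm => ?_⟩
      have h1 := hinv h (h⁻¹ • m) y
      rw [smul_inv_smul] at h1
      rw [h1]
      exact hy' _ (hM h⁻¹ m hm)
    obtain ⟨M', hM'Y, hM', hdisj, hdec⟩ := exists_compl hcop hUp N Y hNY hN hY
    have hd : ∀ x, x ∈ M → x ∈ M' → x = 0 := fun x hx hx' =>
      hdisj x ⟨hMY hx, fun m hm => hA m hm x hx⟩ hx'
    have hnd1 : ∀ m ∈ M, (∀ y ∈ M', β m y = 0) → m = 0 := by
      intro m hm h0
      refine hnd m (hMY hm) fun z hz => ?_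
      obtain ⟨n, hn, m', hm', rfl⟩ := hdec z hz
      rw [map_add, h0 m' hm', hn.2 m hm, add_zero]
    have hnd2 : ∀ y ∈ M', (∀ m ∈ M, β m y = 0) → y = 0 := fun y hy h0 =>
      hdisj y ⟨hM'Y hy, h0⟩ hy
    obtain ⟨lam, hlam⟩ := good_hyp hcop hUp M M' hM hM' hd β hinv hnd1 hnd2
    refine ⟨M ⊔ M', sup_le hMY hM'Y, ?_, inv_sup hM hM', lam, hlam⟩
    intro h0
    apply hMne
    rw [eq_bot_iff, ← h0]
    exact le_sup_left

/-- The main reduction. -/
theorem exists_good [Finite H] [Finite U] (hcop : ¬ p ∣ Nat.card H) (hUp : ∀ u : U, p • u = 0)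
    (hfaith : ∀ h : H, (∀ u : U, h • u = u) → h = 1) (β : U →+ U →+ ZMod p)
    (hinv : ∀ (h : H) x y, β (h • x) (h • y) = β x y) (hnd : ∀ x, (∀ y, β x y = 0) → x = 0) :
    ∃ (U' : AddSubgroup U) (lam : H → ℂ), Inv H U' ∧ GoodOn p U' lam ∧
      ∀ h : H, (∀ w ∈ U', h • w = w) → h = 1 := by
  classical
  have hp : p.Prime := Fact.out
  let S : Set (AddSubgroup U) := {P | Inv H P ∧ ∃ lam : H → ℂ, GoodOn p P lam}
  have hSne : S.Nonempty := ⟨⊥, fun h w hw => by
    rw [(AddSubgroup.mem_bot).mp hw, smul_zero]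
    exact AddSubgroup.zero_mem _, _, goodOn_bot⟩
  obtain ⟨U', hmax⟩ := S.toFinite.exists_maximal hSne
  obtain ⟨hU', lam, hlam⟩ := hmax.1
  refine ⟨U', lam, hU', hlam, ?_⟩
  by_contra hcon
  push Not at hcon
  obtain ⟨h₀, hh₀, hh₀1⟩ := hcon
  -- the centralizer of `U'`
  let K : Subgroup H :=
    { carrier := {h | ∀ w ∈ U', h • w = w}
      one_mem' := fun w _ => one_smul _ _
      mul_mem' := by
        intro a c ha hc w hw
        rw [mul_smul, hc w hw, ha w hw]
      inv_mem' := by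
        intro a ha w hw
        have := ha w hw
        rw [inv_smul_eq_iff, this] }
  letI : Fintype K := Fintype.ofFinite K
  have hKconj : ∀ (h : H), ∀ k ∈ K, h⁻¹ * k * h ∈ K := by
    intro h k hk w hw
    rw [mul_smul, mul_smul, hk _ (hU' h w hw), inv_smul_smul]
  have hKconj' : ∀ (h : H), ∀ k ∈ K, h * k * h⁻¹ ∈ K := by
    intro h k hk
    have := hKconj h⁻¹ k hk
    rwa [inv_inv] at this
  let σ : U →+ U := AddMonoidHom.mk' (fun u => ∑ k : K, (k : H) • u)
    (fun a c => by simp only [smul_add, Finset.sum_add_distrib])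
  have hσ : ∀ u, σ u = ∑ k : K, (k : H) • u := fun u => rfl
  have hσeq : ∀ (h : H) u, σ (h • u) = h • σ u := by
    intro h u
    rw [hσ, hσ, Finset.smul_sum]
    let e : K ≃ K :=
      { toFun := fun k => ⟨h * k * h⁻¹, hKconj' h k k.2⟩
        invFun := fun k => ⟨h⁻¹ * k * h, hKconj h k k.2⟩
        left_inv := fun k => Subtype.ext (by simp [mul_assoc])
        right_inv := fun k => Subtype.ext (by simp [mul_assoc]) }
    refine (Equiv.sum_comp e _).symm.trans ?_
    refine Finset.sum_congr rfl fun k _ => ?_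
    simp [e, mul_smul]
  have hσfix : ∀ (k : H), k ∈ K → ∀ u, k • σ u = σ u := by
    intro k hk u
    rw [hσ, Finset.smul_sum]
    refine Fintype.sum_equiv (Equiv.mulLeft (⟨k, hk⟩ : K)) _ _ fun k' => ?_
    simp [mul_smul]
  have hKcop : ¬ p ∣ Nat.card K := fun hd => hcop (hd.trans (Subgroup.card_subgroup_dvd_card K))
  obtain ⟨t, ht⟩ := exists_nsmul_inverse hUp hKcop
  have hσc : ∀ c : U, (∀ k ∈ K, k • c = c) → σ c = Nat.card K • c := by
    intro c hc
    rw [hσ]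
    have h1 : ∀ k : K, (k : H) • c = c := fun k => hc k k.2
    simp only [h1, Finset.sum_const, Finset.card_univ, Nat.card_eq_fintype_card]
  -- the complement of the fixed points of `K`
  let e : U → U := fun u => t • σ u
  have hefix : ∀ u, ∀ k ∈ K, k • e u = e u := by
    intro u k hk
    have h1 : k • (t • σ u) = t • (k • σ u) := map_nsmul (DistribSMul.toAddMonoidHom U k) t (σ u)
    simp only [e]
    rw [h1, hσfix k hk]
  have hY1 : ∀ u, u - e u ∈ σ.ker := by
    intro u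
    rw [AddMonoidHom.mem_ker, map_sub, hσc _ (hefix u)]
    simp only [e]
    have h1 : Nat.card K • t • σ u = t • Nat.card K • σ u := smul_comm _ _ _
    rw [h1, ht, sub_self]
  have hYinv : Inv H σ.ker := by
    intro h u hu
    rw [AddMonoidHom.mem_ker] at hu ⊢
    rw [hσeq, hu, smul_zero]
  have hn0 : ((Nat.card K : ℕ) : ZMod p) ≠ 0 := by
    rw [Ne, ZMod.natCast_eq_zero_iff]
    exact hKcop
  have hβfix1 : ∀ y ∈ σ.ker, ∀ c : U, (∀ k ∈ K, k • c = c) → β y c = 0 := by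
    intro y hy c hc
    have h1 : ∑ k : K, β ((k : H) • y) ((k : H) • c) = (Nat.card K : ZMod p) * β y c := by
      simp only [hinv, Finset.sum_const, Finset.card_univ, nsmul_eq_mul, Nat.card_eq_fintype_card]
    have h2 : ∑ k : K, β ((k : H) • y) ((k : H) • c) = β (σ y) c := by
      have h3 : ∀ k : K, (k : H) • c = c := fun k => hc k k.2
      simp only [h3]
      rw [hσ, map_sum, AddMonoidHom.finset_sum_apply]
    rw [AddMonoidHom.mem_ker.mp hy] at h2
    have h4 : (Nat.card K : ZMod p) * β y c = 0 := by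
      rw [← h1, h2]
      simp
    exact (mul_eq_zero.mp h4).resolve_left hn0
  have hYnd : ∀ y ∈ σ.ker, (∀ z ∈ σ.ker, β y z = 0) → y = 0 := by
    intro y hy h0
    refine hnd y fun u => ?_
    have h1 : u = (u - e u) + e u := by abel
    rw [h1, map_add, h0 _ (hY1 u), hβfix1 y hy _ (hefix u), add_zero]
  have hYne : σ.ker ≠ ⊥ := by
    intro h0
    apply hh₀1
    refine hfaith h₀ fun u => ?_
    have h1 := hY1 u
    rw [h0, AddSubgroup.mem_bot] at h1
    rw [sub_eq_zero.mp h1]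
    exact hefix u h₀ hh₀
  have hdisj : ∀ x, x ∈ U' → x ∈ σ.ker → x = 0 := by
    intro x hx hx'
    have h1 := hσc x (fun k hk => hk x hx)
    rw [AddMonoidHom.mem_ker.mp hx'] at h1
    rw [← ht x, ← h1, smul_zero]
  obtain ⟨P, hPY, hPne, hP, lam', hlam'⟩ := exists_good_sub hcop hUp β hinv σ.ker hYinv hYnd hYne
  have hmem : U' ⊔ P ∈ S :=
    ⟨inv_sup hU' hP, _, goodOn_sup hU' hP (fun x hx hx' => hdisj x hx (hPY hx')) hlam hlam'⟩
  have hle := hmax.2 hmem le_sup_left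
  apply hPne
  rw [eq_bot_iff]
  intro x hx
  rw [AddSubgroup.mem_bot]
  exact hdisj x (hle (AddSubgroup.mem_sup_right hx)) (hPY hx)

end Star

end Cfsg.Agent.Lib.Char.RVGood
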