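import Cfsg.Agent.Lib.Char.FrobSchur
import Cfsg.Agent.Lib.Char.RepEquiv
import Mathlib.LinearAlgebra.Matrix.Charpoly.Basic
import Mathlib.Analysis.SpecialFunctions.Pow.Real

/-!
# Real forms: indicator `1` iff afforded by a real representation

The matrix proof: given a symmetric invariant form `M` and an invariant Hermitian positive definite
form, one constructs `T` with `T * conj A = A * T`, `T * conj T = 1`, and by Hilbert 90 `T = S (conj S)⁻¹`,
so that `S⁻¹ A S` is real.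
-/

set_option autoImplicit false

namespace Cfsg.Agent.Lib.Char.RealForm

open Cfsg Module
open Cfsg.Agent.Lib.Char.Basic Cfsg.Agent.Lib.Char.Decomp Cfsg.Agent.Lib.Char.Ortho
open Cfsg.Agent.Lib.Char.Complete Cfsg.Agent.Lib.Char.FrobSchur Cfsg.Agent.Lib.Char.RepEquiv
open scoped ComplexConjugate Matrix

universe u

variable {G : Type u} [Group G] {n : ℕ}

/-- Entrywise conjugate of a matrix. -/
noncomputable def cj (X : Mat n) : Mat n := X.map (starRingEnd ℂ)

/-- Entrywise conjugate of a vector. -/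
noncomputable def cv (v : Fin n → ℂ) : Fin n → ℂ := fun i => conj (v i)

@[simp] lemma cj_apply (X : Mat n) (i j : Fin n) : cj X i j = conj (X i j) := rfl
@[simp] lemma cv_apply (v : Fin n → ℂ) (i : Fin n) : cv v i = conj (v i) := rfl

lemma cj_mul (X Y : Mat n) : cj (X * Y) = cj X * cj Y := Matrix.map_mul

lemma cj_one : cj (1 : Mat n) = 1 := by
  ext i j
  simp [Matrix.one_apply, apply_ite (starRingEnd ℂ)]

lemma cj_cj (X : Mat n) : cj (cj X) = X := by
  ext i j
  simp

lemma cv_cv (v : Fin n → ℂ) : cv (cv v) = v := by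
  ext i
  simp

lemma cj_smul (c : ℂ) (X : Mat n) : cj (c • X) = conj c • cj X := by
  ext i j
  simp

lemma cj_add (X Y : Mat n) : cj (X + Y) = cj X + cj Y := by
  ext i j
  simp

lemma cv_mulVec (X : Mat n) (v : Fin n → ℂ) : cv (X *ᵥ v) = cj X *ᵥ cv v := by
  ext i
  simp [Matrix.mulVec, dotProduct, map_sum]

section Form

variable [Fintype G]

/-- The invariant positive-definite sesquilinear form. -/
noncomputable def P (ρ : Representation ℂ G (Fin n → ℂ)) : Mat n :=
  ∑ g : G, (A ρ g)ᵀ * cj (A ρ g)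

lemma P_inv (ρ : Representation ℂ G (Fin n → ℂ)) (h : G) :
    (A ρ h)ᵀ * P ρ * cj (A ρ h) = P ρ := by
  unfold P
  rw [Finset.mul_sum, Finset.sum_mul]
  refine Fintype.sum_equiv (Equiv.mulRight h) _ _ fun g => ?_
  simp only [Equiv.coe_mulRight]
  rw [A_mul, Matrix.transpose_mul, cj_mul]
  simp only [mul_assoc]

/-- The real value of the form. -/
noncomputable def r (ρ : Representation ℂ G (Fin n → ℂ)) (y : Fin n → ℂ) : ℝ :=
  ∑ g : G, ∑ i, ‖(A ρ g *ᵥ y) i‖ ^ 2

lemma dot_self_cv (u : Fin n → ℂ) : u ⬝ᵥ cv u = ((∑ i, ‖u i‖ ^ 2 : ℝ) : ℂ) := by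
  simp only [dotProduct, cv_apply]
  push_cast
  refine Finset.sum_congr rfl fun i _ => ?_
  rw [Complex.mul_conj, Complex.normSq_eq_norm_sq]
  push_cast
  rfl

lemma dot_P (ρ : Representation ℂ G (Fin n → ℂ)) (y : Fin n → ℂ) :
    y ⬝ᵥ (P ρ *ᵥ cv y) = (r ρ y : ℂ) := by
  unfold P r
  rw [Matrix.sum_mulVec, dotProduct_sum]
  push_cast
  refine Finset.sum_congr rfl fun g _ => ?_
  rw [← Matrix.mulVec_mulVec, Matrix.dotProduct_mulVec, Matrix.vecMul_transpose, ← cv_mulVec,
    dot_self_cv]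
  push_cast
  rfl

lemma r_pos (ρ : Representation ℂ G (Fin n → ℂ)) {y : Fin n → ℂ} (hy : y ≠ 0) : 0 < r ρ y := by
  unfold r
  have h0 : ∀ g : G, 0 ≤ ∑ i, ‖(A ρ g *ᵥ y) i‖ ^ 2 := fun g =>
    Finset.sum_nonneg fun i _ => by positivity
  refine lt_of_lt_of_le ?_ (Finset.single_le_sum (fun g _ => h0 g) (Finset.mem_univ (1 : G)))
  rw [A_one, Matrix.one_mulVec]
  obtain ⟨i, hi⟩ := Function.ne_iff.mp hy
  have hi' : y i ≠ 0 := hi
  have : 0 < ‖y i‖ ^ 2 := by positivity
  exact lt_of_lt_of_le this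
    (Finset.single_le_sum (f := fun i => ‖y i‖ ^ 2) (fun j _ => by positivity) (Finset.mem_univ i))

end Form

/-- Hilbert 90 for `GL_n`. -/
theorem exists_hilbert90 (T : Mat n) (hT : T * cj T = 1) :
    ∃ S S' : Mat n, S * S' = 1 ∧ S' * S = 1 ∧ T * cj S = S := by
  classical
  -- choose `k` such that `(k+i)/(k-i)` is not an eigenvalue of `-T`
  let w : ℕ → ℂ := fun k => ((k : ℂ) + Complex.I) / ((k : ℂ) - Complex.I)
  have hden : ∀ k : ℕ, ((k : ℂ) - Complex.I) ≠ 0 := by
    intro k h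
    have := congrArg Complex.im h
    simp at this
  have hwinj : Function.Injective w := by
    intro k l hkl
    simp only [w] at hkl
    rw [div_eq_div_iff (hden k) (hden l)] at hkl
    have h1 : ((k : ℂ) - l) * (2 * Complex.I) = 0 := by
      have hI := Complex.I_mul_I
      linear_combination (-1 : ℂ) * hkl
    have h2 : (k : ℂ) - l = 0 := by
      rcases mul_eq_zero.mp h1 with h | h
      · exact h
      · simp at h
    have h3 : (k : ℂ) = l := sub_eq_zero.mp h2
    exact_mod_cast h3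
  have hp : ((-T).charpoly) ≠ 0 := (Matrix.charpoly_monic _).ne_zero
  obtain ⟨_, ⟨k, rfl⟩, hk⟩ := (Set.infinite_range_of_injective hwinj).exists_notMem_finset
    ((-T).charpoly.roots.toFinset)
  have hk' : (Matrix.scalar (Fin n) (w k) - (-T)).det ≠ 0 := by
    rw [← Matrix.eval_charpoly]
    intro h
    apply hk
    rw [Multiset.mem_toFinset, Polynomial.mem_roots hp]
    exact h
  -- the matrix `S`
  set z : ℂ := (k : ℂ) + Complex.I with hz
  set z' : ℂ := (k : ℂ) - Complex.I with hz'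
  have hzconj : conj z = z' := by
    simp [hz, hz']
    rfl
  have hz'conj : conj z' = z := by
    rw [← hzconj, Complex.conj_conj]
  let S : Mat n := z • 1 + z' • T
  have hS : S = z' • (Matrix.scalar (Fin n) (w k) - (-T)) := by
    have hw : z' * w k = z := by
      simp only [w]
      rw [mul_div_cancel₀ _ (hden k)]
    ext i j
    simp [S, Matrix.one_apply, Matrix.scalar_apply, Matrix.diagonal_apply, mul_add, sub_neg_eq_add]
    by_cases hij : i = j
    · simp [hij, hw]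
    · simp [hij]
  have hdet : S.det ≠ 0 := by
    rw [hS, Matrix.det_smul]
    exact mul_ne_zero (pow_ne_zero _ (hden k)) hk'
  have hunit : IsUnit S.det := isUnit_iff_ne_zero.mpr hdet
  refine ⟨S, S⁻¹, Matrix.mul_nonsing_inv _ hunit, Matrix.nonsing_inv_mul _ hunit, ?_⟩
  simp only [S]
  rw [cj_add, cj_smul, cj_smul, cj_one, hzconj, hz'conj, mul_add, Matrix.mul_smul, Matrix.mul_smul,
    hT, mul_one, add_comm]

/-- A family of real matrices forms a real representation. -/
theorem exists_real_rep (B : G → Mat n) (h1 : B 1 = 1) (hmul : ∀ g h, B (g * h) = B g * B h)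
    (hreal : ∀ g, cj (B g) = B g) :
    ∃ σ : Representation ℝ G (Fin n → ℝ), ∀ g : G,
      ((LinearMap.trace ℝ (Fin n → ℝ) (σ g) : ℝ) : ℂ) = Matrix.trace (B g) := by
  classical
  let R : G → Matrix (Fin n) (Fin n) ℝ := fun g => (B g).map Complex.re
  have hR : ∀ g, (R g).map Complex.ofRealHom = B g := by
    intro g
    ext i j
    have h2 := congrFun (congrFun (hreal g) i) j
    simp only [cj_apply] at h2
    have h3 := Complex.conj_eq_iff_real.mp h2
    obtain ⟨x, hx⟩ := h3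
    simp [R, hx]
  have hinj : Function.Injective (fun X : Matrix (Fin n) (Fin n) ℝ => X.map Complex.ofRealHom) :=
    Matrix.map_injective Complex.ofRealHom.injective
  have hR1 : R 1 = 1 := by
    apply hinj
    simp only
    rw [hR, h1, Matrix.map_one _ (map_zero _) (map_one _)]
  have hRm : ∀ g h, R (g * h) = R g * R h := by
    intro g h
    apply hinj
    simp only
    rw [hR, Matrix.map_mul, hR, hR, hmul]
  refine ⟨{ toFun := fun g => Matrix.toLin' (R g)
            map_one' := by rw [hR1, Matrix.toLin'_one]; rfl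
            map_mul' := fun g h => by rw [hRm, Matrix.toLin'_mul]; rfl }, fun g => ?_⟩
  change ((LinearMap.trace ℝ (Fin n → ℝ) (Matrix.toLin' (R g)) : ℝ) : ℂ) = _
  rw [Matrix.trace_toLin'_eq, ← hR g]
  simp [Matrix.trace]

section Main

variable [Fintype G]

/-- The main construction. -/
theorem exists_real_conj (ρ : Representation ℂ G (Fin n → ℂ)) (hρ : ρ.IsIrreducible)
    {M : Mat n} (hM : M ∈ invForms ρ) (hne : M ≠ 0) (hsym : Mᵀ = M) :
    ∃ S S' : Mat n, S * S' = 1 ∧ S' * S = 1 ∧ ∀ g, cj (S' * A ρ g * S) = S' * A ρ g * S := by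
  classical
  have hunit := isUnit_of_mem_invForms ρ hρ hM hne
  have hdet : IsUnit M.det := (Matrix.isUnit_iff_isUnit_det M).mp hunit
  set Mi : Mat n := M⁻¹ with hMi
  have hMMi : M * Mi = 1 := Matrix.mul_nonsing_inv _ hdet
  have hMiM : Mi * M = 1 := Matrix.nonsing_inv_mul _ hdet
  have hAinv : ∀ g, (A ρ g⁻¹)ᵀ * (A ρ g)ᵀ = 1 := by
    intro g
    rw [← Matrix.transpose_mul, ← A_mul, mul_inv_cancel, A_one, Matrix.transpose_one]
  obtain ⟨T, hT⟩ : ∃ T : Mat n, T = Mi * P ρ := ⟨_, rfl⟩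
  -- intertwining
  have hMA : ∀ g, M * A ρ g = (A ρ g⁻¹)ᵀ * M := by
    intro g
    have h1 := hM g
    calc M * A ρ g = ((A ρ g⁻¹)ᵀ * (A ρ g)ᵀ) * (M * A ρ g) := by rw [hAinv, one_mul]
      _ = (A ρ g⁻¹)ᵀ * ((A ρ g)ᵀ * M * A ρ g) := by simp only [mul_assoc]
      _ = _ := by rw [h1]
  have hAMi : ∀ g, A ρ g * Mi = Mi * (A ρ g⁻¹)ᵀ := by
    intro g
    calc A ρ g * Mi = (Mi * M) * A ρ g * Mi := by rw [hMiM, one_mul]
      _ = Mi * (M * A ρ g) * Mi := by simp only [mul_assoc]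
      _ = Mi * ((A ρ g⁻¹)ᵀ * M) * Mi := by rw [hMA]
      _ = Mi * (A ρ g⁻¹)ᵀ * (M * Mi) := by simp only [mul_assoc]
      _ = _ := by rw [hMMi, mul_one]
  have hPA : ∀ g, P ρ * cj (A ρ g) = (A ρ g⁻¹)ᵀ * P ρ := by
    intro g
    calc P ρ * cj (A ρ g) = ((A ρ g⁻¹)ᵀ * (A ρ g)ᵀ) * (P ρ * cj (A ρ g)) := by rw [hAinv, one_mul]
      _ = (A ρ g⁻¹)ᵀ * ((A ρ g)ᵀ * P ρ * cj (A ρ g)) := by simp only [mul_assoc]
      _ = _ := by rw [P_inv]
  have hT1 : ∀ g, T * cj (A ρ g) = A ρ g * T := by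
    intro g
    calc T * cj (A ρ g) = Mi * (P ρ * cj (A ρ g)) := by rw [hT, mul_assoc]
      _ = Mi * ((A ρ g⁻¹)ᵀ * P ρ) := by rw [hPA]
      _ = (Mi * (A ρ g⁻¹)ᵀ) * P ρ := by rw [mul_assoc]
      _ = (A ρ g * Mi) * P ρ := by rw [hAMi]
      _ = A ρ g * T := by rw [hT, mul_assoc]
  have hT1' : ∀ g, cj T * A ρ g = cj (A ρ g) * cj T := by
    intro g
    have h := congrArg cj (hT1 g)
    rw [cj_mul, cj_mul, cj_cj] at h
    exact h
  -- Schur
  have hρA : ∀ g, ρ g = Matrix.toLin' (A ρ g) := fun g => (Matrix.toLin'_toMatrix' _).symm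
  obtain ⟨c, hc⟩ := schur_scalar ρ hρ (Matrix.toLin' (T * cj T)) (by
    intro g
    rw [hρA, ← Matrix.toLin'_mul, ← Matrix.toLin'_mul]
    congr 1
    calc T * cj T * A ρ g = T * (cj T * A ρ g) := by rw [mul_assoc]
      _ = T * (cj (A ρ g) * cj T) := by rw [hT1']
      _ = (T * cj (A ρ g)) * cj T := by rw [mul_assoc]
      _ = (A ρ g * T) * cj T := by rw [hT1]
      _ = _ := by rw [mul_assoc])
  have hTT : T * cj T = c • 1 := by
    apply Matrix.toLin'.injective
    rw [hc, map_smul, Matrix.toLin'_one]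
  -- positivity
  have hnt := nontrivial_of_isIrreducible hρ
  obtain ⟨y, hy⟩ := exists_ne (0 : Fin n → ℂ)
  set z := T *ᵥ cv y with hz
  have hMT : M * T = P ρ := by rw [hT, ← mul_assoc, hMMi, one_mul]
  have h1 : M *ᵥ z = P ρ *ᵥ cv y := by
    rw [hz, Matrix.mulVec_mulVec, hMT]
  have hz0 : z ≠ 0 := by
    intro h0
    rw [h0, Matrix.mulVec_zero] at h1
    have h2 := dot_P ρ y
    rw [← h1, dotProduct_zero] at h2
    have h3 : r ρ y = 0 := by exact_mod_cast h2.symm
    exact (r_pos ρ hy).ne' h3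
  have h2 : T *ᵥ cv z = c • y := by
    rw [hz, cv_mulVec, cv_cv, Matrix.mulVec_mulVec, hTT, Matrix.smul_mulVec, Matrix.one_mulVec]
  have h3 : P ρ *ᵥ cv z = c • (M *ᵥ y) := by
    rw [← Matrix.mulVec_smul, ← h2, Matrix.mulVec_mulVec, hMT]
  have h4 : z ⬝ᵥ (M *ᵥ y) = (r ρ y : ℂ) := by
    calc z ⬝ᵥ (M *ᵥ y) = (z ᵥ* M) ⬝ᵥ y := Matrix.dotProduct_mulVec _ _ _
      _ = y ⬝ᵥ (z ᵥ* M) := dotProduct_comm _ _
      _ = y ⬝ᵥ (Mᵀ *ᵥ z) := by rw [Matrix.mulVec_transpose]
      _ = y ⬝ᵥ (M *ᵥ z) := by rw [hsym]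
      _ = y ⬝ᵥ (P ρ *ᵥ cv y) := by rw [h1]
      _ = _ := dot_P ρ y
  have h5 : (r ρ z : ℂ) = c * (r ρ y : ℂ) := by
    rw [← dot_P, h3, dotProduct_smul, h4, smul_eq_mul]
  have hry := r_pos ρ hy
  have hrz := r_pos ρ hz0
  set a : ℝ := r ρ z / r ρ y with ha
  have hapos : 0 < a := div_pos hrz hry
  have hca : c = (a : ℂ) := by
    rw [ha]
    push_cast
    have : (r ρ y : ℂ) ≠ 0 := by exact_mod_cast hry.ne'
    rw [eq_div_iff this]
    exact h5.symm
  -- rescale
  set b : ℝ := (Real.sqrt a)⁻¹ with hb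
  have hbpos : 0 < b := inv_pos.mpr (Real.sqrt_pos.mpr hapos)
  have hbb : b * b * a = 1 := by
    rw [hb, ← mul_inv, Real.mul_self_sqrt hapos.le, inv_mul_cancel₀ hapos.ne']
  have hconjb : conj (b : ℂ) = b := Complex.conj_ofReal b
  set T' : Mat n := (b : ℂ) • T with hT'
  have hT'T' : T' * cj T' = 1 := by
    rw [hT', cj_smul, hconjb, Matrix.smul_mul, Matrix.mul_smul, hTT, hca, smul_smul, smul_smul]
    have : (b : ℂ) * b * a = 1 := by
      have h : ((b * b * a : ℝ) : ℂ) = 1 := by rw [hbb]; simp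
      push_cast at h
      exact h
    rw [this, one_smul]
  have hT'1 : ∀ g, T' * cj (A ρ g) = A ρ g * T' := by
    intro g
    rw [hT', Matrix.smul_mul, Matrix.mul_smul, hT1]
  obtain ⟨S, S', hSS', hS'S, hS⟩ := exists_hilbert90 T' hT'T'
  refine ⟨S, S', hSS', hS'S, fun g => ?_⟩
  have hcjS' : cj S' = S' * T' := by
    calc cj S' = (S' * S) * cj S' := by rw [hS'S, one_mul]
      _ = (S' * (T' * cj S)) * cj S' := by rw [hS]
      _ = (S' * T') * (cj S * cj S') := by simp only [mul_assoc]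
      _ = (S' * T') * cj (S * S') := by rw [cj_mul]
      _ = _ := by rw [hSS', cj_one, mul_one]
  calc cj (S' * A ρ g * S) = cj S' * cj (A ρ g) * cj S := by rw [cj_mul, cj_mul]
    _ = S' * (T' * cj (A ρ g)) * cj S := by rw [hcjS', mul_assoc S']
    _ = S' * (A ρ g * T') * cj S := by rw [hT'1]
    _ = S' * A ρ g * (T' * cj S) := by simp only [mul_assoc]
    _ = _ := by rw [hS]

/-- Indicator `1` gives a real representation. -/
theorem exists_real_rep_of_indicator (ρ : Representation ℂ G (Fin n → ℂ)) (hρ : ρ.IsIrreducible)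
    (h : (Nat.card G : ℂ)⁻¹ * ∑ s : G, ρ.character (s * s) = 1) :
    ∃ σ : Representation ℝ G (Fin n → ℝ), ∀ g : G,
      ((LinearMap.trace ℝ (Fin n → ℝ) (σ g) : ℝ) : ℂ) = ρ.character g := by
  classical
  have hreal : ∀ g, (ρ.character g).im = 0 := by
    by_contra hnr
    have h0 := indicator_eq_zero ρ hρ hnr
    rw [h] at h0
    exact one_ne_zero h0
  obtain ⟨_, ⟨M, hM, hne⟩, h3⟩ := indicator_real ρ hρ hreal
  have hsym : Mᵀ = M := by
    rw [h3 M hM, h, one_smul]
  obtain ⟨S, S', hSS', hS'S, hS⟩ := exists_real_conj ρ hρ hM hne hsym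
  obtain ⟨σ, hσ⟩ := exists_real_rep (fun g => S' * A ρ g * S)
    (by simp only [A_one, mul_one]; exact hS'S)
    (by
      intro g h
      rw [A_mul]
      calc S' * (A ρ g * A ρ h) * S = S' * A ρ g * 1 * A ρ h * S := by simp only [mul_one, mul_assoc]
        _ = S' * A ρ g * (S * S') * A ρ h * S := by rw [hSS']
        _ = _ := by simp only [mul_assoc])
    hS
  refine ⟨σ, fun g => ?_⟩
  rw [hσ g, Matrix.trace_mul_cycle, hSS', one_mul, trace_A]

/-- The complexification of a real representation. -/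
noncomputable def complexify {m : ℕ} (σ : Representation ℝ G (Fin m → ℝ)) :
    Representation ℂ G (Fin m → ℂ) where
  toFun g := Matrix.toLin' ((LinearMap.toMatrix' (σ g)).map Complex.ofRealHom)
  map_one' := by
    rw [map_one]
    rw [show (LinearMap.toMatrix' (1 : (Fin m → ℝ) →ₗ[ℝ] (Fin m → ℝ))) = 1 from LinearMap.toMatrix'_one]
    rw [Matrix.map_one _ (map_zero _) (map_one _), Matrix.toLin'_one]
    rfl
  map_mul' g h := by
    rw [map_mul]
    rw [show LinearMap.toMatrix' ((σ g) * (σ h)) = LinearMap.toMatrix' (σ g) * LinearMap.toMatrix' (σ h)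
      from LinearMap.toMatrix'_mul _ _]
    rw [Matrix.map_mul, Matrix.toLin'_mul]
    rfl

lemma A_complexify {m : ℕ} (σ : Representation ℝ G (Fin m → ℝ)) (g : G) :
    A (complexify σ) g = (LinearMap.toMatrix' (σ g)).map Complex.ofRealHom := by
  change LinearMap.toMatrix' (Matrix.toLin' _) = _
  rw [LinearMap.toMatrix'_toLin']

lemma character_complexify {m : ℕ} (σ : Representation ℝ G (Fin m → ℝ)) (g : G) :
    (complexify σ).character g = ((LinearMap.trace ℝ (Fin m → ℝ) (σ g) : ℝ) : ℂ) := by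
  rw [← trace_A, A_complexify]
  have h : LinearMap.trace ℝ (Fin m → ℝ) (σ g) = Matrix.trace (LinearMap.toMatrix' (σ g)) := by
    rw [← Matrix.trace_toLin'_eq, Matrix.toLin'_toMatrix']
  rw [h]
  simp [Matrix.trace]

/-- A real representation affording an irreducible character forces indicator `1`. -/
theorem indicator_of_real_rep (ρ : Representation ℂ G (Fin n → ℂ)) (hρ : ρ.IsIrreducible) {m : ℕ}
    (σ : Representation ℝ G (Fin m → ℝ))
    (h : ∀ g : G, ((LinearMap.trace ℝ (Fin m → ℝ) (σ g) : ℝ) : ℂ) = ρ.character g) :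
    (Nat.card G : ℂ)⁻¹ * ∑ s : G, ρ.character (s * s) = 1 := by
  classical
  set τ := complexify σ with hτdef
  have hchar : τ.character = ρ.character := by
    funext g
    rw [hτdef, character_complexify, h]
  obtain ⟨φ⟩ := nonempty_equiv_of_character_eq ρ τ hchar.symm
  have hτ : τ.IsIrreducible := isIrreducible_of_equiv φ hρ
  have hreal : ∀ g, (τ.character g).im = 0 := by
    intro g
    rw [hτdef, character_complexify, Complex.ofReal_im]
  obtain ⟨_, _, h3⟩ := indicator_real τ hτ hreal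
  rw [hchar] at h3
  set M : Mat m := ∑ g : G, (A τ g)ᵀ * A τ g with hMdef
  have hM : M ∈ invForms τ := by
    intro h
    rw [hMdef, Finset.mul_sum, Finset.sum_mul]
    refine Fintype.sum_equiv (Equiv.mulRight h) _ _ fun g => ?_
    simp only [Equiv.coe_mulRight]
    rw [A_mul, Matrix.transpose_mul]
    simp only [mul_assoc]
  have hsym : Mᵀ = M := by
    rw [hMdef, Matrix.transpose_sum]
    refine Finset.sum_congr rfl fun g _ => ?_
    rw [Matrix.transpose_mul, Matrix.transpose_transpose]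
  have hne : M ≠ 0 := by
    have hnt := nontrivial_of_isIrreducible hτ
    have : Nonempty (Fin m) := by
      by_contra hemp
      rw [not_nonempty_iff] at hemp
      exact not_subsingleton (Fin m → ℂ) inferInstance
    obtain ⟨i⟩ := this
    intro hM0
    have hii : M i i = ((∑ g : G, ∑ k, (LinearMap.toMatrix' (σ g) k i) ^ 2 : ℝ) : ℂ) := by
      rw [hMdef, Matrix.sum_apply]
      push_cast
      refine Finset.sum_congr rfl fun g _ => ?_
      rw [Matrix.mul_apply]
      refine Finset.sum_congr rfl fun k _ => ?_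
      rw [A_complexify]
      simp [pow_two]
    rw [hM0] at hii
    have h0 : (∑ g : G, ∑ k, (LinearMap.toMatrix' (σ g) k i) ^ 2 : ℝ) = 0 := by
      have : ((∑ g : G, ∑ k, (LinearMap.toMatrix' (σ g) k i) ^ 2 : ℝ) : ℂ) = 0 := by
        rw [← hii]; rfl
      exact_mod_cast this
    have hnn : ∀ g : G, 0 ≤ ∑ k, (LinearMap.toMatrix' (σ g) k i) ^ 2 := fun g =>
      Finset.sum_nonneg fun k _ => by positivity
    have h1 := (Finset.sum_eq_zero_iff_of_nonneg (fun g _ => hnn g)).mp h0 1 (Finset.mem_univ _)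
    have h2 := (Finset.sum_eq_zero_iff_of_nonneg (fun k _ => by positivity)).mp h1 i (Finset.mem_univ _)
    rw [map_one] at h2
    rw [show (LinearMap.toMatrix' (1 : (Fin m → ℝ) →ₗ[ℝ] (Fin m → ℝ))) = 1 from
      LinearMap.toMatrix'_one] at h2
    simp at h2
  have h4 := h3 M hM
  rw [hsym] at h4
  have h5 : (1 - (Nat.card G : ℂ)⁻¹ * ∑ s : G, ρ.character (s * s)) • M = 0 := by
    rw [sub_smul, one_smul, ← h4, sub_self]
  rcases smul_eq_zero.mp h5 with h6 | h6
  · exact (sub_eq_zero.mp h6).symm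
  · exact absurd h6 hne

/-- The Frobenius–Schur theorem on real representations. -/
theorem indicator_eq_one_iff {χ : G → ℂ} (hχ : IsIrrCharacter G χ) :
    ((Nat.card G : ℂ)⁻¹ * ∑ s : G, χ (s * s)) = 1 ↔
      ∃ (m : ℕ) (σ : Representation ℝ G (Fin m → ℝ)), ∀ g : G,
        ((LinearMap.trace ℝ (Fin m → ℝ) (σ g) : ℝ) : ℂ) = χ g := by
  obtain ⟨n, ρ, hρ, rfl⟩ := hχ
  constructor
  · intro h
    obtain ⟨σ, hσ⟩ := exists_real_rep_of_indicator ρ hρ h
    exact ⟨n, σ, hσ⟩
  · rintro ⟨m, σ, hσ⟩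
    exact indicator_of_real_rep ρ hρ σ hσ

end Main

end Cfsg.Agent.Lib.Char.RealForm
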