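import Mathlib
import Cfsg.Agent.Lib.Char.RealOdd
import Cfsg.Agent.Lib.Char.RegularSum
import Cfsg.Agent.Lib.Char.Complete

/-!
# Counting real-valued irreducible characters of odd degree

Let `f` be the indicator function of the elements of odd order, `|G| = 2 ^ n * m`, `m` odd.  By
Brauer's theorem `2 ^ n [f, ψ] = (1 / m) ∑_{x odd} ψ (x)` is an integer, and it is odd for a real
`ψ` of odd degree.  As `[f, f] ≤ 1`, Parseval gives at most `4 ^ n` such `ψ`.
-/

set_option autoImplicit false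

namespace Cfsg.Agent.Lib.Char.RealOddCount

open Cfsg
open Cfsg.Agent.Lib.Char.RegularSum Cfsg.Agent.Lib.Char.RealOdd
open Cfsg.Agent.Lib.Char.Ortho Cfsg.Agent.Lib.Char.Basic Cfsg.Agent.Lib.Char.Degree
open Cfsg.Agent.Lib.Char.Complete
open scoped ComplexConjugate

universe u

section

variable {G : Type u} [Group G] [Fintype G]

/-- The indicator of the `p`-regular elements. -/
noncomputable def regInd (p : ℕ) : G → ℂ := fun x => if p ∣ orderOf x then 0 else 1

theorem isClassFunction_regInd (p : ℕ) : IsClassFunction G (regInd p : G → ℂ) := by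
  intro g h
  have h5 : orderOf (h⁻¹ * g * h) = orderOf g := by
    have := orderOf_injective (MulAut.conj h⁻¹).toMonoidHom
      (MulAut.conj h⁻¹).injective g
    simpa using this
  unfold regInd
  rw [show h * g * h⁻¹ = h⁻¹⁻¹ * g * h⁻¹ by group]
  have h6 : orderOf (h⁻¹⁻¹ * g * h⁻¹) = orderOf g := by
    have := orderOf_injective (MulAut.conj h⁻¹⁻¹).toMonoidHom
      (MulAut.conj h⁻¹⁻¹).injective g
    simpa using this
  rw [h6]

/-- A regular sum of a real `ψ`: the value of `ψ` at 1 plus an even number. -/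
theorem exists_regSum_two {ψ : G → ℂ} (hψ : IsIrrCharacter G ψ)
    (hreal : ∀ g : G, (ψ g).im = 0) :
    ∃ γ : ℂ, IsIntegral ℤ γ ∧ regSum 2 ψ = ψ 1 + 2 * γ := by
  classical
  let S : Finset G := Finset.univ.filter (fun x => ¬ 2 ∣ orderOf x ∧ x ≠ 1)
  have hS : ∀ x : G, x ∈ S ↔ (¬ 2 ∣ orderOf x ∧ x ≠ 1) := by
    intro x; simp [S]
  have hinv : ∀ x : G, x ∈ S → x⁻¹ ∈ S := by
    intro x hx
    rw [hS] at hx ⊢
    rw [orderOf_inv]
    exact ⟨hx.1, inv_ne_one.mpr hx.2⟩
  let W := {x : G // x ∈ S}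
  let s : Equiv.Perm W :=
    { toFun := fun w => ⟨w.1⁻¹, hinv _ w.2⟩
      invFun := fun w => ⟨w.1⁻¹, hinv _ w.2⟩
      left_inv := fun w => Subtype.ext (inv_inv _)
      right_inv := fun w => Subtype.ext (inv_inv _) }
  let F : W → ℂ := fun w => ψ w.1
  have hsF : ∀ w, F (s w) = F w := fun w => irr_inv_of_real hψ hreal _
  have hFint : ∀ w, IsIntegral ℤ (F w) := fun w => isIntegral_irr hψ _
  have hper : ∀ w, Function.minimalPeriod s w = 2 := by
    intro w
    have : Fact (Nat.Prime 2) := ⟨Nat.prime_two⟩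
    refine Function.minimalPeriod_eq_prime (p := 2) ?_ ?_
    · exact Subtype.ext (inv_inv _)
    · intro hfix
      have h1 : w.1⁻¹ = w.1 := congrArg Subtype.val hfix
      have hw := (hS _).1 w.2
      have h2 : w.1 ^ 2 = 1 := by
        rw [pow_two]
        nth_rw 1 [← h1]
        exact inv_mul_cancel _
      have h3 : orderOf w.1 ∣ 2 := orderOf_dvd_of_pow_eq_one h2
      rcases (Nat.dvd_prime Nat.prime_two).mp h3 with h | h
      · exact hw.2 (orderOf_eq_one_iff.mp h)
      · exact hw.1 (h ▸ dvd_refl _)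
  obtain ⟨γ, hγ, hsum⟩ := Cfsg.Agent.Lib.Char.DefectZero.sum_invariant_eq_mul s F hsF hFint 2
    (fun w _ => by rw [hper w])
  refine ⟨γ, hγ, ?_⟩
  have h1 : ∑ w, F w = ∑ x ∈ S, ψ x := Finset.sum_coe_sort S ψ
  have h2 : regSum 2 ψ = ψ 1 + ∑ x ∈ S, ψ x := by
    unfold regSum
    rw [← Finset.add_sum_erase _ _ (Finset.mem_univ (1 : G))]
    simp only [orderOf_one, Nat.dvd_one, OfNat.ofNat_ne_one, if_false]
    congr 1
    rw [Finset.sum_ite, Finset.sum_const_zero, zero_add]
    refine Finset.sum_congr ?_ fun _ _ => rfl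
    ext x
    simp [S, and_comm]
  rw [h2, ← h1, hsum]
  norm_num

/-- The main estimate. -/
theorem card_le (hB : BrauerInduction G) :
    Nat.card {χ : IrrCharacter G // (∀ g : G, ((χ : G → ℂ) g).im = 0) ∧
      Odd (charDegree (χ : G → ℂ))} ≤ 2 ^ (2 * (Nat.card G).factorization 2) := by
  classical
  have : Finite (IrrCharacter G) := finite_irrCharacter
  let _ : Fintype (IrrCharacter G) := Fintype.ofFinite _
  set n := (Nat.card G).factorization 2 with hn
  set m := Nat.card G / 2 ^ n with hm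
  have hcardne : Nat.card G ≠ 0 := Nat.card_pos.ne'
  have hcard : Nat.card G = 2 ^ n * m := (Nat.mul_div_cancel' (Nat.ordProj_dvd _ _)).symm
  have hodd : ¬ 2 ∣ m := Nat.not_dvd_ordCompl Nat.prime_two hcardne
  have hmne : (m : ℂ) ≠ 0 := by
    apply Nat.cast_ne_zero.mpr
    intro h
    rw [h] at hodd
    exact hodd (dvd_zero _)
  have hGne : (Nat.card G : ℂ) ≠ 0 := Nat.cast_ne_zero.mpr hcardne
  let f : G → ℂ := regInd 2
  have hfcf : IsClassFunction G f := isClassFunction_regInd 2
  -- the coefficients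
  have hcoef : ∀ ψ : IrrCharacter G, (∀ g : G, ((ψ : G → ℂ) g).im = 0) →
      Odd (charDegree (ψ : G → ℂ)) →
      ((1 : ℝ) / 4 ^ n) ≤ ‖classInner f (ψ : G → ℂ)‖ ^ 2 := by
    intro ψ hreal hψodd
    obtain ⟨a, ha⟩ := exists_regSum_eq_mul hB Nat.prime_two hcard hodd
      (isCharacter_of_isIrrCharacter ψ.2)
    obtain ⟨γ, hγ, hsum⟩ := exists_regSum_two ψ.2 hreal
    have ha0 : a ≠ 0 := by
      rintro rfl
      rw [Int.cast_zero, mul_zero] at ha
      rw [ha] at hsum
      have hd : ((charDegree (ψ : G → ℂ) : ℕ) : ℂ) = (ψ : G → ℂ) 1 :=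
        charDegree_natCast (isCharacter_of_isIrrCharacter ψ.2)
      have h1 : ((charDegree (ψ : G → ℂ) : ℕ) : ℂ) / ((2 : ℕ) : ℂ) = -γ := by
        rw [hd]
        push_cast
        linear_combination (1 / 2 : ℂ) * hsum.symm
      have h2 : IsIntegral ℤ (((charDegree (ψ : G → ℂ) : ℕ) : ℂ) / ((2 : ℕ) : ℂ)) := by
        rw [h1]
        exact hγ.neg
      have h3 := Cfsg.Agent.Lib.Char.Central.nat_dvd_of_isIntegral_div (by norm_num) h2
      rcases hψodd with ⟨k, hk⟩
      omega
    have hinner : classInner f (ψ : G → ℂ) = (a : ℂ) / 2 ^ n := by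
      rw [classInner_def]
      have h1 : ∑ g : G, f g * conj ((ψ : G → ℂ) g) = regSum 2 (ψ : G → ℂ) := by
        unfold regSum
        refine Finset.sum_congr rfl fun x _ => ?_
        simp only [f, regInd]
        split_ifs
        · simp
        · rw [one_mul]
          exact Complex.conj_eq_iff_im.mpr (hreal x)
      rw [h1, ha, hcard]
      push_cast
      field_simp
    rw [hinner, norm_div, norm_pow, Complex.norm_intCast, Complex.norm_ofNat, div_pow, ← pow_mul]
    have h4 : (4 : ℝ) ^ n = 2 ^ (n * 2) := by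
      rw [mul_comm, pow_mul]; norm_num
    rw [h4]
    apply div_le_div_of_nonneg_right _ (by positivity)
    have h5 : (1 : ℝ) ≤ |(a : ℝ)| := by
      exact_mod_cast Int.one_le_abs ha0
    nlinarith [abs_nonneg (a : ℝ)]
  -- Parseval
  have hpars : classInner f f = ∑ χ : IrrCharacter G, classInner f χ * conj (classInner f χ) :=
    classInner_eq_sum hfcf
  have hpars2 : (classInner f f).re = ∑ χ : IrrCharacter G, ‖classInner f χ‖ ^ 2 := by
    rw [hpars, Complex.re_sum]
    refine Finset.sum_congr rfl fun χ _ => ?_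
    rw [Complex.mul_conj, Complex.normSq_eq_norm_sq, Complex.ofReal_re]
  have hff : (classInner f f).re ≤ 1 := by
    rw [classInner_def]
    have h1 : ∑ g : G, f g * conj (f g) =
        (((Finset.univ.filter (fun x : G => ¬ 2 ∣ orderOf x)).card : ℕ) : ℂ) := by
      have : ∀ g : G, f g * conj (f g) = if ¬ 2 ∣ orderOf g then 1 else 0 := by
        intro g
        simp only [f, regInd]
        by_cases h : 2 ∣ orderOf g
        · simp [h]
        · simp [h]
      simp_rw [this]
      rw [Finset.sum_ite, Finset.sum_const_zero, add_zero, Finset.sum_const, nsmul_eq_mul, mul_one]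
    rw [h1]
    have h2 : ((Nat.card G : ℂ)⁻¹ *
        (((Finset.univ.filter (fun x : G => ¬ 2 ∣ orderOf x)).card : ℕ) : ℂ)) =
        (((((Nat.card G : ℝ)⁻¹ *
        (((Finset.univ.filter (fun x : G => ¬ 2 ∣ orderOf x)).card : ℕ) : ℝ)) : ℝ)) : ℂ) := by
      push_cast
      rfl
    rw [h2, Complex.ofReal_re]
    have h3 : (((Finset.univ.filter (fun x : G => ¬ 2 ∣ orderOf x)).card : ℕ) : ℝ) ≤ Nat.card G := by
      rw [Nat.card_eq_fintype_card]
      exact_mod_cast Finset.card_le_univ _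
    have h4 : (0 : ℝ) < Nat.card G := by exact_mod_cast Nat.card_pos
    rw [inv_mul_le_iff₀ h4]
    linarith
  -- conclude
  let X : Finset (IrrCharacter G) := Finset.univ.filter (fun χ =>
    (∀ g : G, ((χ : G → ℂ) g).im = 0) ∧ Odd (charDegree (χ : G → ℂ)))
  have hXcard : Nat.card {χ : IrrCharacter G // (∀ g : G, ((χ : G → ℂ) g).im = 0) ∧
      Odd (charDegree (χ : G → ℂ))} = X.card := by
    rw [Nat.card_eq_fintype_card, Fintype.card_subtype]
  rw [hXcard]
  have hsum : (X.card : ℝ) * ((1 : ℝ) / 4 ^ n) ≤ ∑ χ : IrrCharacter G, ‖classInner f χ‖ ^ 2 := by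
    calc (X.card : ℝ) * ((1 : ℝ) / 4 ^ n) = ∑ _χ ∈ X, ((1 : ℝ) / 4 ^ n) := by
          rw [Finset.sum_const, nsmul_eq_mul]
      _ ≤ ∑ χ ∈ X, ‖classInner f χ‖ ^ 2 := Finset.sum_le_sum fun χ hχ => by
          have := (Finset.mem_filter.mp hχ).2
          exact hcoef χ this.1 this.2
      _ ≤ ∑ χ : IrrCharacter G, ‖classInner f χ‖ ^ 2 :=
          Finset.sum_le_sum_of_subset_of_nonneg (Finset.subset_univ _) fun _ _ _ => by positivity
  rw [← hpars2] at hsum
  have hfinal : (X.card : ℝ) ≤ 4 ^ n := by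
    have h4 : (0 : ℝ) < 4 ^ n := by positivity
    have h5 := hsum.trans hff
    rw [mul_one_div, div_le_iff₀ h4, one_mul] at h5
    exact h5
  have : X.card ≤ 4 ^ n := by exact_mod_cast hfinal
  rw [pow_mul]
  norm_num
  exact this

end

end Cfsg.Agent.Lib.Char.RealOddCount
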